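import Cfsg.Agent.H24.FrobSol

/-! `SL(2,3)` and `SL(2,5)` are Frobenius complements. -/

set_option autoImplicit false

namespace H24
open Finset

/-- entries of a `2 × 2` matrix -/
abbrev T4 (p : ℕ) := ZMod p × ZMod p × ZMod p × ZMod p

/-- matrix product on entries -/
def T4.mul {p : ℕ} (x y : T4 p) : T4 p :=
  (x.1 * y.1 + x.2.1 * y.2.2.1, x.1 * y.2.1 + x.2.1 * y.2.2.2,
    x.2.2.1 * y.1 + x.2.2.2 * y.2.2.1, x.2.2.1 * y.2.1 + x.2.2.2 * y.2.2.2)

/-- determinant on entries -/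
def T4.det {p : ℕ} (x : T4 p) : ZMod p := x.1 * x.2.2.2 - x.2.1 * x.2.2.1

/-- `x ^ n * y` -/
def T4.pw {p : ℕ} (x : T4 p) : ℕ → T4 p → T4 p
  | 0, y => y
  | n + 1, y => T4.mul x (T4.pw x n y)

/-- entries -/
def toT4 {p : ℕ} (g : Matrix.SpecialLinearGroup (Fin 2) (ZMod p)) : T4 p :=
  (g.1 0 0, g.1 0 1, g.1 1 0, g.1 1 1)

theorem toT4_mul {p : ℕ} (g h : Matrix.SpecialLinearGroup (Fin 2) (ZMod p)) :
    toT4 (g * h) = T4.mul (toT4 g) (toT4 h) := by
  simp [toT4, T4.mul, Matrix.mul_apply, Fin.sum_univ_two]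

theorem toT4_det {p : ℕ} (g : Matrix.SpecialLinearGroup (Fin 2) (ZMod p)) :
    T4.det (toT4 g) = 1 := by
  have := g.2
  rw [Matrix.det_fin_two] at this
  exact this

theorem toT4_pw {p : ℕ} (g h : Matrix.SpecialLinearGroup (Fin 2) (ZMod p)) (n : ℕ) :
    toT4 (g ^ n * h) = T4.pw (toT4 g) n (toT4 h) := by
  induction n with
  | zero => simp [T4.pw]
  | succ n ih => rw [pow_succ', mul_assoc, toT4_mul, ih]; rfl

theorem toT4_one {p : ℕ} : toT4 (1 : Matrix.SpecialLinearGroup (Fin 2) (ZMod p)) = (1, 0, 0, 1) := by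
  simp [toT4]

theorem toT4_injective {p : ℕ} : Function.Injective (toT4 (p := p)) := by
  intro g h e
  simp only [toT4, Prod.mk.injEq] at e
  ext i j
  fin_cases i <;> fin_cases j <;> simp [e.1, e.2.1, e.2.2.1, e.2.2.2]

/-- the check for one prime -/
def T4.Chk {p : ℕ} (F : T4 p → ℤ) (q : ℕ) : Prop :=
  ∀ x : T4 p, x.det = 1 → x ≠ (1, 0, 0, 1) → x.pw q (1, 0, 0, 1) = (1, 0, 0, 1) →
    ∀ y : T4 p, y.det = 1 → ((List.range q).map fun i => F (x.pw i y)).sum = 0

theorem sol_of_chk {p : ℕ} (F : T4 p → ℤ)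
    (h : ∀ a : Matrix.SpecialLinearGroup (Fin 2) (ZMod p), (orderOf a).Prime →
      T4.Chk F (orderOf a)) : Sol fun g => F (toT4 g) := by
  intro a ha g
  have := h a ha (toT4 a) (toT4_det a) (fun h => ha.one_lt.ne (by
      rw [← toT4_one] at h; rw [toT4_injective h, orderOf_one]))
    (by rw [← toT4_one, ← toT4_pw, pow_orderOf_eq_one, one_mul]) (toT4 g) (toT4_det g)
  simp only [toT4_pw]
  rw [← this]
  rfl

theorem orderOf_dvd_of_pw {p n : ℕ} (h : ∀ x : T4 p, x.det = 1 → x.pw n (1, 0, 0, 1) = (1, 0, 0, 1))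
    (a : Matrix.SpecialLinearGroup (Fin 2) (ZMod p)) : orderOf a ∣ n := by
  apply orderOf_dvd_of_pow_eq_one
  apply toT4_injective
  rw [← mul_one (a ^ n), toT4_pw, toT4_one, h _ (toT4_det a)]

theorem nontrivial_sl2 {p : ℕ} [Fact p.Prime] :
    Nontrivial (Matrix.SpecialLinearGroup (Fin 2) (ZMod p)) :=
  ⟨⟨⟨!![1, 1; 0, 1], by simp [Matrix.det_fin_two]⟩, 1, fun h => by
    have := congrArg (fun g => (toT4 g).2.1) h
    simp [toT4] at this⟩⟩

/-- character of degree 2 of `SL(2,3)` -/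
def F3 (x : T4 3) : ℤ :=
  if x = (1, 0, 0, 1) then 2 else if x = (2, 0, 0, 2) then -2 else
    if x.1 + x.2.2.2 = 2 then -1 else if x.1 + x.2.2.2 = 1 then 1 else 0

/-- rational character of degree 4 of `SL(2,5)` -/
def F5 (x : T4 5) : ℤ :=
  if x = (1, 0, 0, 1) then 4 else if x = (4, 0, 0, 4) then -4 else
    if x.1 + x.2.2.2 = 2 then -1 else if x.1 + x.2.2.2 = 3 then 1 else
    if x.1 + x.2.2.2 = 4 then -2 else if x.1 + x.2.2.2 = 1 then 2 else 0

theorem chk32 : T4.Chk F3 2 := by unfold T4.Chk; decide +kernel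
theorem chk33 : T4.Chk F3 3 := by unfold T4.Chk; decide +kernel
theorem chk52 : T4.Chk F5 2 := by unfold T4.Chk; decide +kernel
theorem chk53 : T4.Chk F5 3 := by unfold T4.Chk; decide +kernel
theorem chk55 : T4.Chk F5 5 := by unfold T4.Chk; decide +kernel

theorem isFC_sl23 : IsFC (Matrix.SpecialLinearGroup (Fin 2) (ZMod 3)) := by
  haveI : Fact (Nat.Prime 3) := ⟨by norm_num⟩
  haveI := nontrivial_sl2 (p := 3)
  refine isFC_of_sol_int (sol_of_chk F3 fun a ha => ?_) (fun h => ?_)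
  · have h := orderOf_dvd_of_pw (p := 3) (n := 2 * 2 * 3) (by decide +kernel) a
    simp only [ha.dvd_mul, Nat.prime_dvd_prime_iff_eq ha Nat.prime_two,
      Nat.prime_dvd_prime_iff_eq ha Nat.prime_three, or_self] at h
    rcases h with h | h <;> rw [h]
    exacts [chk32, chk33]
  · have := congrFun h 1
    rw [toT4_one] at this
    revert this; decide

theorem isFC_sl25 : IsFC (Matrix.SpecialLinearGroup (Fin 2) (ZMod 5)) := by
  haveI : Fact (Nat.Prime 5) := ⟨by norm_num⟩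
  haveI := nontrivial_sl2 (p := 5)
  refine isFC_of_sol_int (sol_of_chk F5 fun a ha => ?_) (fun h => ?_)
  · have h := orderOf_dvd_of_pw (p := 5) (n := 2 * 2 * 3 * 5) (by decide +kernel) a
    simp only [ha.dvd_mul, Nat.prime_dvd_prime_iff_eq ha Nat.prime_two,
      Nat.prime_dvd_prime_iff_eq ha Nat.prime_three,
      Nat.prime_dvd_prime_iff_eq ha Nat.prime_five, or_self] at h
    rcases h with (h | h) | h <;> rw [h]
    exacts [chk52, chk53, chk55]
  · have := congrFun h 1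
    rw [toT4_one] at this
    revert this; decide

end H24
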