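/-
S5815: a kit for `L₂(q)`.
-/
import Cfsg.Agent.H26.O7B
import Cfsg.Agent.H26.O7S
import Cfsg.Agent.S0243

set_option autoImplicit false
set_option linter.unnecessarySeqFocus false

open Module QuadraticMap H12 Cfsg MatrixGroups Subgroup H26.O7
namespace H24.O7
universe u v

section
variable {G : Type*} [Group G] {t y : G}
theorem a4_of (tt : t * t = 1) (t1 : t ≠ 1) (y3 : y ^ 3 = 1) (h : (t * y) ^ 3 = 1) : A4 t y := ⟨y3, tt, t1, by
  have a : y⁻¹ = y * y := inv_eq_of_mul_eq_one_right (by rw [← y3, pow_three])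
  have b : t * y * t = y⁻¹ * t * y⁻¹ := by
    rw [pow_three] at h
    calc t * y * t = t * y * (t * y * (t * y)) * y⁻¹ * t⁻¹ * y⁻¹ := by group
      _ = _ := by rw [h, one_mul, inv_eq_of_mul_eq_one_right tt]
  calc t * (y * t * y⁻¹) = t * y * t * y⁻¹ := by group
    _ = y⁻¹ * t * (y⁻¹ * y⁻¹) := by rw [b]; group
    _ = _ := by rw [← mul_inv_rev, ← a, inv_inv]⟩

theorem a4_card [Finite G] (h : A4 t y) : 12 ∣ Nat.card (closure {t, y}) := by
  have := Fact.mk Nat.prime_three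
  have y1 : y ≠ 1 := by rintro rfl; exact h.t1 (by simpa [h.tt] using h.rel.symm)
  have d3 := (closure {t, y}).orderOf_dvd_natCard (subset_closure (by simp) : y ∈ _)
  rw [orderOf_eq_prime h.y3 y1] at d3
  have s : ∀ g : G, g * t * g⁻¹ * (g * t * g⁻¹) = 1 := fun g => by
    rw [show g * t * g⁻¹ * (g * t * g⁻¹) = g * (t * t) * g⁻¹ by group, h.tt]; group
  have n : ∀ g : G, g * t * g⁻¹ ≠ 1 := fun g e => h.t1 (by simpa [mul_inv_eq_one] using e)
  have c : t * (y * t * y⁻¹) = y * t * y⁻¹ * t := by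
    have := s y⁻¹
    rw [inv_inv, ← h.rel] at this
    rw [← inv_eq_of_mul_eq_one_right this, mul_inv_rev, inv_eq_of_mul_eq_one_right (s y), inv_eq_of_mul_eq_one_right h.tt]
  have hV := sq_closure (S := {t, y * t * y⁻¹}) (by rintro _ (rfl | rfl); exacts [h.tt, s y])
    (by rintro _ (rfl | rfl) _ (rfl | rfl); exacts [rfl, c, c.symm, rfl])
  obtain ⟨k, hk⟩ := (IsPGroup.iff_card (p := 2) (G := closure {t, y * t * y⁻¹})).1 fun g =>
    ⟨1, Subtype.ext (by simpa [pow_two] using hV g g.2)⟩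
  have l : 2 < Nat.card (closure {t, y * t * y⁻¹}) := by
    have := Fintype.ofFinite (closure {t, y * t * y⁻¹})
    rw [Nat.card_eq_fintype_card, Fintype.two_lt_card_iff]
    refine ⟨1, ⟨t, subset_closure (by simp)⟩, ⟨y * t * y⁻¹, subset_closure (by simp)⟩,
      fun e => h.t1 (congrArg Subtype.val e).symm, fun e => n y (congrArg Subtype.val e).symm, fun e => n y⁻¹ ?_⟩
    rw [inv_inv, ← h.rel, ← show t = y * t * y⁻¹ from congrArg Subtype.val e, h.tt]
  have d4 := card_dvd_of_le (show closure {t, y * t * y⁻¹} ≤ closure {t, y} from (closure_le _).2 (by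
    have a : t ∈ closure {t, y} := subset_closure (by simp)
    have b : y ∈ closure {t, y} := subset_closure (by simp)
    rintro _ (rfl | rfl); exacts [a, mul_mem (mul_mem b a) (inv_mem b)]))
  rw [hk] at l d4
  refine Nat.Coprime.mul_dvd_of_dvd_of_dvd (m := 3) (n := 4) (by norm_num) d3 (dvd_trans (pow_dvd_pow 2 (n := k) (m := 2) ?_) d4)
  by_contra! e
  interval_cases k <;> omega
end

variable {F : Type} [Field F]

variable (F) in
abbrev π : SL(2, F) →* PSL(2, F) := QuotientGroup.mk' (center SL(2, F))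
theorem π_neg1 : π F (-1) = 1 := (QuotientGroup.eq_one_iff _).2 (mem_center_iff.2 fun g => by simp)
theorem π_neg (g : SL(2, F)) : π F (-g) = π F g := by rw [← neg_one_mul, map_mul, π_neg1, one_mul]
theorem det2 (M : SL(2, F)) : M.1 0 0 * M.1 1 1 - M.1 0 1 * M.1 1 0 = 1 := (Matrix.det_fin_two _).symm.trans M.2
theorem π_one {g : SL(2, F)} : π F g = 1 ↔ g.1 0 1 = 0 ∧ g.1 1 0 = 0 ∧ g.1 0 0 = g.1 1 1 := by
  refine (QuotientGroup.eq_one_iff _).trans (Matrix.SpecialLinearGroup.mem_center_iff.trans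
    ⟨fun ⟨r, _, h2⟩ => by rw [← h2]; simp, fun ⟨a, b, c⟩ => ⟨g.1 0 0, ?_, ?_⟩⟩)
  · have := det2 g
    rw [a, ← c] at this
    simpa [pow_two] using this
  · ext i j; fin_cases i <;> fin_cases j <;> simp [a, b, c]
theorem ww : wy F * wy F = -1 := by ext i j; fin_cases i <;> fin_cases j <;> simp [wy_val]
theorem πww : π F (wy F) * π F (wy F) = 1 := by rw [← map_mul, ww, π_neg1]

variable (F) in
def uh : Multiplicative F →* PSL(2, F) := MonoidHom.mk' (fun t => π F (up t.toAdd)) fun a b => by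
  rw [toAdd_mul, up_add, map_mul]
theorem uh_inj : Function.Injective (uh F) := (injective_iff_map_eq_one _).2 fun _ h => (π_one.1 h).1
theorem up_inj {s t : F} (h : π F (up s) = π F (up t)) : s = t := uh_inj (a₁ := .ofAdd s) (a₂ := .ofAdd t) h
theorem up_ne1 {s : F} (h : s ≠ 0) : π F (up s) ≠ 1 := fun e => h (π_one.1 e).1
theorem mem_U {g : PSL(2, F)} : g ∈ (uh F).range ↔ ∃ t, π F (up t) = g := Iff.rfl
theorem U_comm : ∀ a ∈ (uh F).range, ∀ b ∈ (uh F).range, a * b = b * a := by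
  rintro _ ⟨a, rfl⟩ _ ⟨b, rfl⟩; rw [← map_mul, mul_comm, map_mul]
theorem U_pow {n : ℕ} (h : (n : F) = 0) : ∀ a ∈ (uh F).range, a ^ n = 1 := fun _ ha => by
  obtain ⟨t, rfl⟩ := mem_U.1 ha; rw [← map_pow, up_pow, h, zero_mul, up_zero, map_one]
theorem up_zpow (s : F) (n : ℤ) : π F (up s) ^ n = π F (up (n * s)) :=
  (map_zpow (uh F) (.ofAdd s) n).symm.trans (by rw [← ofAdd_zsmul, zsmul_eq_mul]; rfl)
theorem cj_up (a : Fˣ) (t : F) : π F (dg a) * π F (up t) * (π F (dg a))⁻¹ = π F (up (a * a * t)) := by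
  rw [← map_mul, dg_up, map_mul, mul_inv_cancel_right]
theorem up_conj {s t : F} (a : F) (a0 : a ≠ 0) (h : a * a * s = t) : IsConj (π F (up s)) (π F (up t)) :=
  isConj_iff.2 ⟨_, h ▸ cj_up (Units.mk0 a a0) s⟩

theorem top_of {H : Subgroup PSL(2, F)} (hU : ∀ t, π F (up t) ∈ H) {g : SL(2, F)} (hg : π F g ∈ H) (c : g.1 1 0 ≠ 0) :
    H = ⊤ := by
  let m : SL(2, F) := ⟨!![0, -(g.1 1 0)⁻¹; g.1 1 0, 0], by simp [Matrix.det_fin_two, c]⟩
  have mv : m.1 = !![0, -(g.1 1 0)⁻¹; g.1 1 0, 0] := rfl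
  have d := det2 g
  have hm : π F m ∈ H := by
    rw [show m = up (-g.1 0 0 / g.1 1 0) * g * up (-g.1 1 1 / g.1 1 0) from ?_, map_mul, map_mul]
    · exact mul_mem (mul_mem (hU _) hg) (hU _)
    ext i j
    fin_cases i <;> fin_cases j <;> simp [mv, up_val, Matrix.mul_apply, Matrix.vecMul, dotProduct] <;> field_simp <;>
      first | ring1 | linear_combination d
  refine eq_top_iff.2 fun x _ => ?_
  obtain ⟨x, rfl⟩ := QuotientGroup.mk'_surjective _ x
  refine Matrix.SL2.transvection_induction (fun x => π F x ∈ H) (fun i j h s => ?_) (fun a b ha hb => ?_) x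
  · have : i = 0 ∧ j = 1 ∨ i = 1 ∧ j = 0 := by omega
    rcases this with ⟨rfl, rfl⟩ | ⟨rfl, rfl⟩
    · rw [show Matrix.SpecialLinearGroup.transvection h s = up s from ?_]; exact hU s
      ext i j
      fin_cases i <;> fin_cases j <;> simp [up_val, Matrix.SpecialLinearGroup.transvection_coe]
    · rw [show Matrix.SpecialLinearGroup.transvection h s = m * up (-s / g.1 1 0 ^ 2) * m⁻¹ from eq_mul_inv_of_mul_eq ?_,
        map_mul, map_mul, map_inv]
      · exact mul_mem (mul_mem hm (hU _)) (inv_mem hm)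
      ext i j
      fin_cases i <;> fin_cases j <;>
        simp [mv, up_val, Matrix.SpecialLinearGroup.transvection_coe, Matrix.mul_apply] <;> field_simp
  · rw [map_mul]; exact mul_mem ha hb

theorem cube {M : SL(2, F)} (h : M.1 0 0 + M.1 1 1 = -1) : M ^ 3 = 1 := by
  have d := det2 M
  ext i j
  fin_cases i <;> fin_cases j <;> simp [pow_three, Matrix.mul_apply] <;> grind

def cm (t : F) : SL(2, F) := ⟨!![0, -1; 1, t], by simp [Matrix.det_fin_two]⟩
theorem cm_val (t : F) : (cm t).1 = !![0, -1; 1, t] := rfl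
theorem conj_cm (M : SL(2, F)) (x y : F) (h : x * (M.1 1 0 * x + M.1 1 1 * y) - (M.1 0 0 * x + M.1 0 1 * y) * y = 1) :
    IsConj (cm (M.1 0 0 + M.1 1 1)) M := by
  let P : SL(2, F) := ⟨!![x, M.1 0 0 * x + M.1 0 1 * y; y, M.1 1 0 * x + M.1 1 1 * y], by
    rw [Matrix.det_fin_two_of, h]⟩
  have pv : P.1 = !![x, M.1 0 0 * x + M.1 0 1 * y; y, M.1 1 0 * x + M.1 1 1 * y] := rfl
  have d := det2 M
  refine isConj_iff.2 ⟨P, mul_inv_eq_of_eq_mul ?_⟩
  ext i j
  fin_cases i <;> fin_cases j <;> simp [pv, cm_val, Matrix.mul_apply] <;> grind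

theorem sq2 [Fintype F] (o : Odd (Fintype.card F)) {a b : F} (a0 : a ≠ 0) (b0 : b ≠ 0) (c : F) :
    ∃ x y, a * x ^ 2 + b * y ^ 2 = c := by
  obtain ⟨x, y, h⟩ := FiniteField.exists_root_sum_quadratic (Polynomial.degree_quadratic (b := 0) (c := 0) a0)
    (Polynomial.degree_quadratic (b := 0) (c := -c) b0) (Nat.odd_iff.1 o)
  exact ⟨x, y, by simp at h; linear_combination h⟩
theorem two_ne [Fintype F] (o : Odd (Fintype.card F)) : (2 : F) ≠ 0 := fun e => by
  have : CharP F 2 := (CharP.charP_iff_prime_eq_zero Nat.prime_two).2 e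
  exact Nat.not_odd_iff.2 (FiniteField.even_card_iff_char_two.1 (ringChar.eq F 2)) o
theorem conj_tr [Fintype F] (o : Odd (Fintype.card F)) (M : SL(2, F)) (h : (M.1 0 0 + M.1 1 1) ^ 2 ≠ 4) :
    IsConj (cm (M.1 0 0 + M.1 1 1)) M := by
  have d := det2 M
  have h2 := two_ne o
  by_cases c : M.1 1 0 = 0
  · have n : M.1 1 1 - M.1 0 0 ≠ 0 := fun e => h (by grind)
    exact conj_cm M ((1 + M.1 0 1) / (M.1 1 1 - M.1 0 0)) 1 (by rw [c]; field_simp; ring)
  obtain ⟨x, y, e⟩ := sq2 o one_ne_zero (sub_ne_zero.2 h.symm) (4 * M.1 1 0)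
  exact conj_cm M ((x - (M.1 1 1 - M.1 0 0) * y) / (2 * M.1 1 0)) y (by field_simp; grind)

/-- the element of order three -/
def yy (a : Fˣ) : SL(2, F) := ⟨!![0, ((a⁻¹ : Fˣ) : F); -a, -1], by simp [Matrix.det_fin_two]⟩
theorem yy_val (a : Fˣ) : (yy a).1 = !![0, ((a⁻¹ : Fˣ) : F); -a, -1] := rfl
theorem yy3 (a : Fˣ) : π F (yy a) ^ 3 = 1 := by rw [← map_pow, cube (by simp [yy_val]), map_one]
theorem wy_yy (a : Fˣ) : π F (wy F) * π F (yy a) = π F (dg a) * π F (up ((a⁻¹ : Fˣ) : F)) := by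
  rw [← map_mul, ← map_mul, ← π_neg]; congr 1
  ext i j; fin_cases i <;> fin_cases j <;> simp [wy_val, yy_val, dg_val, up_val]
theorem ex_a4 {a b : F} (h : a ^ 2 - a * b + b ^ 2 - b + 1 = 0) (n : b ≠ 0 ∨ (2 : F) ≠ 0) :
    ∃ t : SL(2, F), t.1 0 0 + t.1 1 1 = 0 ∧ A4 (π F t) (π F (yy 1)) := by
  let t : SL(2, F) := ⟨!![a, b; b - a - 1, -a], by rw [Matrix.det_fin_two_of]; linear_combination -h⟩
  have tv : t.1 = !![a, b; b - a - 1, -a] := rfl
  refine ⟨t, by simp [tv], a4_of ?_ (fun e => ?_) (yy3 1) ?_⟩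
  · rw [← map_mul, ← π_neg1]; congr 1
    ext i j; fin_cases i <;> fin_cases j <;> simp [tv] <;> grind
  · have := π_one.1 e
    simp only [tv, Matrix.of_apply, Matrix.cons_val', Matrix.cons_val_zero, Matrix.cons_val_one, Matrix.cons_val_fin_one] at this
    grind
  · rw [← map_mul, ← map_pow, cube (by simp [tv, yy_val]; ring), map_one]
theorem ex_a4' [Fintype F] (o : Odd (Fintype.card F)) (h3 : (3 : F) ≠ 0) :
    ∃ t : SL(2, F), t.1 0 0 + t.1 1 1 = 0 ∧ A4 (π F t) (π F (yy 1)) := by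
  have h2 := two_ne o
  obtain ⟨x, y, e⟩ := sq2 o h3 one_ne_zero (-8)
  exact ex_a4 (a := (x + (y + 2) / 3) / 2) (b := (y + 2) / 3) (by field_simp; grind) (.inr h2)
theorem perf [Fintype F] (h : 5 ≤ Fintype.card F) : commutator PSL(2, F) = ⊤ := by
  obtain ⟨a, ha⟩ := ex_sq_ne h
  exact SL2Simple.PSL_commutator_eq_top ⟨a, a.ne_zero, by rwa [pow_two]⟩

end H24.O7
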