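/-
S5815, pieces L2P, L28.
-/
import Cfsg.Agent.H24.O7a

set_option autoImplicit false
set_option linter.unnecessarySeqFocus false

open Module QuadraticMap H12 Cfsg MatrixGroups Subgroup H26.O7
namespace H24.O7
universe u v

theorem l2p (hz : HZ.{u, 0}) : L2P.{u} := by
  intro F _ _ K _ _ p hp _ R h7 hq hi hn
  have q : (Fintype.card F).Prime := by rcases hq with h | h | h <;> rw [h]; exacts [hp.1, by norm_num, by norm_num]
  have o := q.odd_of_ne_two (by omega)
  have h2 := two_ne o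
  have h0 := FiniteField.cast_card_eq_zero F
  have h3 : (3 : F) ≠ 0 := fun e => by
    have := Fact.mk q
    have := charP_of_card_eq_prime (R := F) rfl
    have := Nat.le_of_dvd (by norm_num) ((CharP.cast_eq_zero_iff F (Fintype.card F) 3).1 e)
    omega
  have xy : π F (wy F) * π F (yy 1) = π F (up 1) := by
    rw [wy_yy, show dg (1 : Fˣ) = 1 by ext i j; fin_cases i <;> fin_cases j <;> simp [dg_val]]; simp
  obtain ⟨t, t0, ht⟩ := ex_a4' o h3
  refine (hz K p _ R _ _ πww (yy3 1) ?_).2 hi hn (perf (by omega)) ?_ (.inr (.inr ⟨_, _, ?_, .refl _, ht⟩))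
  · rw [xy]
    have k := U_pow h0 _ (mem_U.2 ⟨1, rfl⟩)
    rcases hq with h | h | h <;> rw [h] at k h0
    · exact .inl ⟨1, by rwa [pow_one]⟩
    · refine .inr (.inl ⟨k, ?_⟩)
      rw [← map_pow, up_pow]
      exact up_conj 3 h3 (by push_cast at h0 ⊢; linear_combination h0)
    · refine .inr (.inr (.inl ⟨k, ?_⟩))
      rw [← map_pow, up_pow]
      exact up_conj (2 * 2) (mul_ne_zero h2 h2) (by push_cast at h0 ⊢; linear_combination h0)
  · have a : π F (wy F) ∈ closure {π F (wy F), π F (yy 1)} := subset_closure (by simp)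
    refine top_of (fun t => ?_) a (by simp [wy_val])
    obtain ⟨z, rfl⟩ := (ZMod.ringEquivOfPrime F q rfl).surjective t
    obtain ⟨n, rfl⟩ := ZMod.intCast_surjective z
    rw [map_intCast, ← mul_one (n : F), ← up_zpow, ← xy]
    exact zpow_mem (mul_mem a (subset_closure (by simp))) n
  · have := (π F).map_isConj (conj_tr o t (by rw [t0]; exact fun e => mul_ne_zero h2 h2 (by linear_combination -e)))
    rwa [t0, show cm 0 = -wy F by ext i j; fin_cases i <;> fin_cases j <;> simp [cm_val, wy_val], π_neg] at this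

section
variable {F : Type} [Field F] [Fintype F] (h8 : Fintype.card F = 8)
include h8
theorem two8 : (2 : F) = 0 := by
  have := FiniteField.cast_card_eq_zero F
  rw [h8] at this
  exact pow_eq_zero_iff (n := 3) (by norm_num) |>.1 (by push_cast at this; linear_combination this)
theorem pw8 (a : F) : a ^ 8 = a := h8 ▸ FiniteField.pow_card a
theorem ex_ζ : ∃ z : Fˣ, (z : F) ^ 3 = z + 1 := by
  obtain ⟨a, ha⟩ := ex_sq_ne (F := F) (by omega)
  have h2 := two8 h8
  have := pw8 h8 a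
  have k : ((a : F) ^ 3 - (a + 1)) * ((a + 1) ^ 3 - (a + 1 + 1)) = 0 :=
    mul_left_cancel₀ (mul_ne_zero a.ne_zero (sub_ne_zero.2 ha)) (by grind)
  rcases mul_eq_zero.1 k with k | k
  · exact ⟨a, sub_eq_zero.1 k⟩
  · exact ⟨Units.mk0 (a + 1) fun e => ha (by grind), sub_eq_zero.1 k⟩
theorem o3 {M : SL(2, F)} (h : π F M ^ 3 = 1) (n : π F M ≠ 1) : IsConj (π F (cm 1)) (π F M) := by
  have h2 := two8 h8
  have d := det2 M
  have t : M.1 0 0 + M.1 1 1 = 1 := by
    by_contra t
    have t' : (M.1 0 0 + M.1 1 1) ^ 2 - 1 ≠ 0 := fun e => t (sub_eq_zero.1 (pow_eq_zero_iff (n := 2) (by norm_num) |>.1 (by grind)))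
    obtain ⟨a, b, c⟩ := π_one.1 ((map_pow _ _ _).trans h)
    simp [pow_three, Matrix.mul_apply] at a b c
    exact n (π_one.2 ⟨mul_left_cancel₀ t' (by grind), mul_left_cancel₀ t' (by grind), mul_left_cancel₀ t' (by grind)⟩)
  have c : M.1 1 0 ≠ 0 := fun c => by
    have := pw8 h8 (M.1 0 0)
    grind
  have := pw8 h8 (M.1 1 0)
  exact t ▸ (π F).map_isConj (conj_cm M (M.1 1 0 ^ 3) 0 (mul_left_cancel₀ c (by grind)))
theorem tr8 {g : Fˣ} (h : g ≠ 1) {s t : F} (s0 : s ≠ 0) (t0 : t ≠ 0) : ∃ n : ℕ, t = (g : F) ^ n * s := by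
  have := Fact.mk (by norm_num : Nat.Prime 7)
  obtain ⟨n, e⟩ := mem_powers_of_prime_card (p := 7) (by rw [Nat.card_units, Nat.card_eq_fintype_card, h8]) h
    (g' := Units.mk0 (t / s) (div_ne_zero t0 s0))
  exact ⟨n, by rw [← Units.val_pow_eq_pow_val, show g ^ n = _ from e, Units.val_mk0, div_mul_cancel₀ _ s0]⟩
end

theorem l28 (hz : HZ.{u, 0}) : L28.{u} := by
  intro F _ _ K _ _ p _ _ R h8 hi hn
  have h2 := two8 h8
  obtain ⟨ζ, hζ⟩ := ex_ζ h8
  have hη : ((ζ⁻¹ : Fˣ) : F) = ζ ^ 2 + 1 := by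
    rw [Units.val_inv_eq_inv_val]; exact inv_eq_of_mul_eq_one_right (by grind)
  have θ1 : ζ * ζ ≠ 1 := fun e => by
    have : (ζ : F) * ζ = 1 := congrArg Units.val e
    grind
  let M : SL(2, F) := dg ζ * up ((ζ⁻¹ : Fˣ) : F)
  have mv : M.1 = !![(ζ : F), 1; 0, ζ ^ 2 + 1] := by
    rw [← hη]; ext i j; fin_cases i <;> fin_cases j <;> simp [M, dg_val, up_val]
  have xy : π F (wy F) * π F (yy ζ) = π F M := (wy_yy ζ).trans (map_mul _ _ _).symm
  have z7 : π F M ^ 7 = 1 := by
    rw [← map_pow, show M ^ 7 = 1 from ?_, map_one]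
    ext i j; fin_cases i <;> fin_cases j <;> simp [mv, pow_succ] <;> grind
  have cz : ∀ (k : ℕ) s, π F M ^ k * π F (up s) = π F (up (((ζ * ζ : Fˣ) : F) ^ k * s)) * π F M ^ k := fun k => by
    induction k with
    | zero => simp
    | succ k ih =>
      intro s
      have : π F M * π F (up s) = π F (up (ζ * ζ * s)) * π F M := by
        simp only [← map_mul, M]
        rw [mul_assoc, ← up_add, add_comm, up_add, ← mul_assoc, dg_up, mul_assoc]
      rw [pow_succ, mul_assoc, this, ← mul_assoc, ih, mul_assoc, pow_succ, Units.val_mul, mul_assoc (_ ^ k)]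
  have gn : closure {π F (wy F), π F (yy ζ)} = ⊤ := by
    have a : π F (wy F) ∈ closure {π F (wy F), π F (yy ζ)} := subset_closure (by simp)
    have b : π F M ∈ closure {π F (wy F), π F (yy ζ)} := xy ▸ mul_mem a (subset_closure (by simp))
    have c : π F (up ((ζ : F) ^ 4)) ∈ closure {π F (wy F), π F (yy ζ)} := by
      have : wy F * M * M = M * M * wy F * up ((ζ : F) ^ 4) * wy F := by
        ext i j; fin_cases i <;> fin_cases j <;> simp [mv, wy_val, up_val] <;> grind
      have := congrArg (π F) this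
      simp only [map_mul] at this
      rw [← mul_mem_cancel_left (mul_mem (mul_mem b b) a), ← mul_mem_cancel_right a, ← this]
      exact mul_mem (mul_mem a b) b
    refine top_of (fun t => ?_) a (by simp [wy_val])
    by_cases t0 : t = 0
    · rw [t0, up_zero, map_one]; exact one_mem _
    obtain ⟨n, rfl⟩ := tr8 h8 θ1 (pow_ne_zero 4 ζ.ne_zero) t0
    rw [← mul_mem_cancel_right (pow_mem b n), ← cz]
    exact mul_mem (pow_mem b n) c
  have o6 : O6c R p (π F (wy F) * π F (yy ζ)) := by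
    rw [xy]
    obtain ⟨b, w, h⟩ := wt K _ R (uh F).range fun e he => by rw [← pow_two]; exact U_pow (by exact_mod_cast h2) e he
    have m : ∀ s, π F (up s) ∈ (uh F).range := fun s => mem_U.2 ⟨s, rfl⟩
    obtain ⟨i, hi⟩ := Finset.card_ne_zero.1 (h.rk _ (m 1) ▸ R.r_ne (up_ne1 one_ne_zero))
    replace hi := (Finset.mem_filter.1 hi).2
    refine .inr (.inr (.inr ⟨z7, b i, LinearMap.linearIndependent_of_isOrthoᵢ (B := polarBilin (Q K)) (fun k l kl => ?_)
      fun k => (polar_self' _ _).trans_ne (mul_ne_zero R.two ((R.Q_ρ _ _).trans_ne (h.ns i)))⟩))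
    have ac : ∀ (k : ℕ) s, R.ρ (π F (up (((ζ * ζ : Fˣ) : F) ^ k * s))) (R.ρ (π F M ^ k) (b i)) =
        (((w i (π F (up s)) : ℤˣ) : ℤ) : K) • R.ρ (π F M ^ k) (b i) := fun k s => by
      rw [← R.ρ_mul, ← cz, R.ρ_mul, h.act _ (m s), map_smul]
    let γ : Fˣ := ((ζ * ζ) ^ l.1)⁻¹ * (ζ * ζ) ^ k.1
    have γ1 : γ ≠ 1 := fun e => by
      have := Fact.mk (by norm_num : Nat.Prime 7)
      have o : orderOf (ζ * ζ) = 7 := orderOf_eq_prime (by
        rw [← pow_card_eq_one' (x := ζ * ζ), Nat.card_units, Nat.card_eq_fintype_card, h8]) θ1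
      exact kl (Fin.ext (pow_injOn_Iio_orderOf (by rw [o]; exact k.2) (by rw [o]; exact l.2) (inv_mul_eq_one.1 e).symm))
    obtain ⟨s, hs⟩ : ∃ s, w i (π F (up (γ * s))) ≠ w i (π F (up s)) := by
      by_contra! e
      have a : ∀ n : ℕ, w i (π F (up ((γ : F) ^ n * 1))) = -1 := fun n => by
        induction n with
        | zero => simpa using hi
        | succ n ih => rw [pow_succ', mul_assoc, e, ih]
      have a : ∀ t, t ≠ 0 → w i (π F (up t)) = -1 := fun t t0 => by
        obtain ⟨n, rfl⟩ := tr8 h8 γ1 one_ne_zero t0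
        exact a n
      have := a _ (hζ ▸ pow_ne_zero 3 ζ.ne_zero)
      rw [up_add, map_mul, h.mul _ (m _) _ (m _), hi, a _ ζ.ne_zero] at this
      exact absurd this (by decide)
    have := R.polar_ρ (π F (up (((ζ * ζ : Fˣ) : F) ^ k.1 * s))) (R.ρ (π F M ^ k.1) (b i)) (R.ρ (π F M ^ l.1) (b i))
    rw [ac, show ((ζ * ζ : Fˣ) : F) ^ k.1 * s = ((ζ * ζ : Fˣ) : F) ^ l.1 * (γ * s) by simp [γ]; field_simp, ac,
      polar_smul_left, polar_smul_right] at this
    refine (mul_eq_zero.1 (?_ : 2 * polar (Q K) _ _ = 0)).resolve_left R.two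
    rcases Int.units_eq_one_or (w i (π F (up s))) with a | a <;>
      rcases Int.units_eq_one_or (w i (π F (up (γ * s)))) with c | c <;> rw [a, c] at this hs <;>
      first | exact absurd rfl hs | (simp only [smul_eq_mul] at this; push_cast at this; linear_combination -this)
  have y1 : π F (yy ζ) ≠ 1 := fun e => (ζ⁻¹).ne_zero (π_one.1 e).1
  by_cases h : R.r (π F (yy ζ)) = 4 ∨ (3 : K) = 0
  · exact .inl ((hz K p _ R _ _ πww (yy3 ζ) o6).2 hi hn (perf (by omega)) gn (h.imp_right .inl))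
  refine .inr ⟨fun e => h (.inr e), fun y hy => ?_⟩
  obtain ⟨y, rfl⟩ := QuotientGroup.mk'_surjective _ y
  rw [← R.r_isConj ((o3 h8 (yy3 ζ) y1).symm.trans (o3 h8 (hy ▸ pow_orderOf_eq_one _) fun e => by
    rw [e, orderOf_one] at hy; omega))]
  obtain ⟨k, hk⟩ : Even (R.r (π F (yy ζ))) :=
    ev K _ (Q K) R.two (Q_nd R.two) _ (R.iso _) 3 (by decide) (by rw [← map_pow, yy3, map_one])
  have := R.fr_fix (π F (yy ζ))
  have := R.r_ne y1
  by_contra h6
  obtain ⟨v, v0, a, b, -⟩ := fx3 (R.ρ (π F (yy ζ))) (R.ρ (π F (wy F) * π F (yy ζ) * (π F (wy F))⁻¹)) 1 (by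
    have := R.r_conj (π F (wy F)) (π F (yy ζ))
    rw [rk_one, finrank_V]; simp only [Rp.r] at *; omega)
  rw [inv_eq_of_mul_eq_one_right πww, R.ρ_mul, R.ρ_mul] at b
  have c : v + R.ρ (π F (wy F)) v = 0 := hi.fixed fun g => (gn.ge.trans ((closure_le (R.St _)).2 (by
    rintro _ (rfl | rfl)
    · rw [SetLike.mem_coe, Rp.mem_St, map_add, R.ρρ πww, add_comm]
    · rw [SetLike.mem_coe, Rp.mem_St, map_add, a, add_right_inj]
      exact (R.ρρ πww _).symm.trans (congrArg _ b)))) (mem_top g)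
  have d : ∀ n : ℕ, R.ρ (π F M ^ n) v = (-1 : K) ^ n • v := fun n => by
    induction n with
    | zero => simp
    | succ n ih => rw [pow_succ, R.ρ_mul, ← xy, R.ρ_mul, a, eq_neg_of_add_eq_zero_right c, map_neg, xy, ih, pow_succ]; simp
  have := d 7
  rw [z7, map_one] at this
  exact v0 (eq_zero_of_neg R.two (by simpa [Odd.neg_one_pow (by decide : Odd 7)] using this))

end H24.O7
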