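/-
S5815, piece L2A.
-/
import Cfsg.Agent.H24.O7a

set_option autoImplicit false
set_option linter.unnecessarySeqFocus false

open Module QuadraticMap H12 Cfsg MatrixGroups Subgroup H26.O7
namespace H24.O7
universe u v

variable {F : Type} [Field F] [Fintype F] {K : Type u} [Field K] [IsAlgClosed K]

theorem l2a1 (w7 : W7.{u, 0}) (R : Rp K PSL(2, F)) (o : Odd (Fintype.card F)) (h0 : (Fintype.card F : K) ≠ 0)
    (h11 : 11 ≤ Fintype.card F) : Fintype.card F = 13 := by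
  obtain ⟨l, _, n, hl, hc⟩ := FiniteField.card' F
  obtain ⟨g, hg⟩ := IsCyclic.exists_ofOrder_eq_natCard (α := Fˣ)
  rw [Nat.card_units, Nat.card_eq_fintype_card] at hg
  have k : ∀ (f e : Fin 7 → ℕ) (ε : Fin 7 → ℤ), (∀ j, ε j = 1 ∨ ε j = -1) →
      (∀ j, (ε j : F) * ((g : F) ^ e j * g ^ e j) = g ^ f j) → (∀ j, f j < Fintype.card F - 1) → ¬ f.Injective :=
    fun f e ε h1 h2 h3 h4 => by
      obtain ⟨j, m, jm, b, hb, b1, h⟩ := ((w7 K _ R).1 (uh F).range l
        (Odd.of_dvd_nat o (hc ▸ dvd_pow_self l n.ne_zero)) (fun e => h0 (by rw [hc, Nat.cast_pow, e, zero_pow n.ne_zero]))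
        (U_pow (CharP.cast_eq_zero F l)) U_comm).2 (fun e => up_ne1 one_ne_zero (mem_bot.1 (e ▸ mem_U.2 ⟨1, rfl⟩)))
        (fun j => π F (dg (g ^ e j))) ε h1 fun j a ha => by obtain ⟨t, rfl⟩ := mem_U.1 ha; exact mem_U.2 ⟨_, (cj_up _ _).symm⟩
      obtain ⟨t, rfl⟩ := mem_U.1 hb
      rw [cj_up, cj_up, up_zpow, up_zpow, ← mul_assoc, ← mul_assoc (ε m : F), Units.val_pow_eq_pow_val,
        Units.val_pow_eq_pow_val, h2, h2] at h
      have := mul_right_cancel₀ (fun e => b1 (by rw [e, up_zero, map_one])) (up_inj h)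
      exact jm (h4 (pow_injOn_Iio_orderOf (x := g) (hg ▸ h3 j) (hg ▸ h3 m) (Units.ext (by simpa using this))))
  by_contra h13
  obtain ⟨r, hr⟩ := o
  by_cases h : Fintype.card F = 11
  · have g5 : (g : F) ^ 5 = -1 := by
      have a : g ^ 5 ≠ 1 := pow_ne_one_of_lt_orderOf (by norm_num) (by omega)
      have b : g ^ (5 * 2) = 1 := by rw [show 5 * 2 = orderOf g by omega, pow_orderOf_eq_one]
      exact (sq_eq_one_iff.1 (by simpa only [pow_mul, Units.val_pow_eq_pow_val, Units.val_one] using congrArg Units.val b)).resolve_left fun e =>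
        a (Units.ext (by simpa using e))
    refine k ![0, 2, 4, 6, 8, 5, 7] ![0, 1, 2, 3, 4, 0, 1] ![1, 1, 1, 1, 1, -1, -1] (by decide) (fun j => ?_)
      (by rw [h]; decide) (by decide)
    fin_cases j <;> simp <;> grind
  · exact k (fun j => j + j) (fun j => j) (fun _ => 1) (fun _ => .inl rfl) (fun j => by simp [pow_add])
      (fun j => by have := j.2; omega) fun a b e => Fin.ext (by simp only at e; omega)

theorem l2a2 (R : Rp K PSL(2, F)) (o : Even (Fintype.card F)) : Fintype.card F < 16 := by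
  by_contra! h
  have c2 : ringChar F = 2 := FiniteField.even_card_iff_char_two.2 (Nat.even_iff.1 o)
  have h2 : ((2 : ℕ) : F) = 0 := c2 ▸ ringChar.Nat.cast_ringChar
  obtain ⟨n, -, hc⟩ := FiniteField.card F (ringChar F)
  rw [c2] at hc
  obtain ⟨A, hA⟩ := Sylow.exists_subgroup_card_pow_prime (G := Multiplicative F) 2 (n := 4) (by
    rw [Nat.card_congr Multiplicative.toAdd, Nat.card_eq_fintype_card, hc]
    exact pow_dvd_pow 2 ((Nat.pow_le_pow_iff_right (a := 2) (by norm_num)).1 (hc ▸ h :)))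
  refine (((e2 K _ R).2.2 (A.map (uh F)) fun e he => ?_).2.2 ?_).1 ((card_map_of_injective uh_inj).trans hA)
  · rw [← pow_two]; exact U_pow h2 e (map_le_range _ _ he)
  · rintro _ ⟨s, -, rfl⟩ _ ⟨t, -, rfl⟩ s1 t1
    have s0 : s.toAdd ≠ 0 := fun e => s1 (by rw [show s = 1 from e, map_one])
    have t0 : t.toAdd ≠ 0 := fun e => t1 (by rw [show t = 1 from e, map_one])
    obtain ⟨a, ha⟩ := FiniteField.isSquare_of_char_two c2 (t.toAdd / s.toAdd)
    exact up_conj a (fun e => div_ne_zero t0 s0 (by rw [ha, e, mul_zero])) (by rw [← ha, div_mul_cancel₀ _ s0])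

theorem l2a3 (ak : AK.{u, 0}) (R : Rp K PSL(2, F)) (h : Fintype.card F = 4 ∨ Fintype.card F = 5) : ¬ R.Irr := by
  have c := Cfsg.Agent.S0243.result (F := F) rfl 2 le_rfl
  have h0 := FiniteField.cast_card_eq_zero F
  obtain ⟨t, -, ht⟩ : ∃ t : SL(2, F), t.1 0 0 + t.1 1 1 = 0 ∧ A4 (π F t) (π F (yy 1)) := by
    rcases h with h | h <;> rw [h] at h0
    · classical
      obtain ⟨a, -, ha⟩ := Finset.exists_mem_notMem_of_card_lt_card (s := {(0 : F), 1}) (t := Finset.univ)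
        (Finset.card_le_two.trans_lt (by rw [Finset.card_univ]; omega))
      simp only [Finset.mem_insert, Finset.mem_singleton, not_or] at ha
      have h2 : (2 : F) = 0 := mul_self_eq_zero.1 (by push_cast at h0; linear_combination h0)
      have := FiniteField.pow_card a
      rw [h] at this
      exact ex_a4 (a := a) (b := 1) (mul_left_cancel₀ (mul_ne_zero ha.1 (sub_ne_zero.2 ha.2)) (by grind)) (.inl one_ne_zero)
    · exact ex_a4' (by rw [h]; decide) fun e => one_ne_zero (α := F) (by push_cast at h0; linear_combination 2 * e - h0)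
  refine (ak K _ R).2.2 _ _ ht ?_
  have a := (closure {π F t, π F (yy 1)}).card_mul_index
  obtain ⟨k, hk⟩ := a4_card ht
  have b : Nat.card PSL(2, F) = 60 := by rcases h with h | h <;> simp [h] at c <;> omega
  rw [hk, b] at a
  rcases k with _ | k
  · omega
  · nlinarith

omit [IsAlgClosed K] in
theorem mu3 {x y : K} (hx : x ^ 3 = 1) (hy : y ^ 3 = 1) : x = 1 ∨ y = 1 ∨ y * x * x = 1 ∨ y * x = 1 := by
  have : (x - 1) * ((y - 1) * ((y * x * x - 1) * (y * x - 1))) = 0 := by grind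
  simpa only [mul_eq_zero, sub_eq_zero] using this

theorem l2a4 (tr : TR.{u, 0}) (R : Rp K PSL(2, F)) (h9 : Fintype.card F = 9) (h3 : (3 : K) ≠ 0) : ¬ R.Irr := fun hi => by
  have f3 : (3 : F) = 0 := mul_self_eq_zero.1 (by
    have := FiniteField.cast_card_eq_zero F
    rw [h9] at this; push_cast at this; linear_combination this)
  obtain ⟨g, hg⟩ := IsCyclic.exists_ofOrder_eq_natCard (α := Fˣ)
  rw [Nat.card_units, Nat.card_eq_fintype_card, h9] at hg
  obtain ⟨ι, hι⟩ : ∃ ι : F, ι = g * g := ⟨_, rfl⟩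
  have ii : ι * ι = -1 := by
    have a : g ^ 4 ≠ 1 := pow_ne_one_of_lt_orderOf (by norm_num) (by omega)
    have b : g ^ (4 * 2) = 1 := by rw [show 4 * 2 = orderOf g by omega, pow_orderOf_eq_one]
    rw [show ι * ι = g ^ 4 by rw [hι]; ring]
    exact (sq_eq_one_iff.1 (by simpa only [pow_mul, Units.val_pow_eq_pow_val, Units.val_one] using congrArg Units.val b)).resolve_left fun e =>
      a (Units.ext (by simpa using e))
  obtain ⟨h, -, -, t, ht⟩ := (tr K).1 _ R (uh F).range 3 (by decide) h3 (U_pow f3) U_comm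
  have m : ∀ s, π F (up s) ∈ (uh F).range := fun s => mem_U.2 ⟨s, rfl⟩
  obtain ⟨χ, hχ⟩ : ∃ χ : Fin 3 → F → K, ∀ i c, χ i c = t (π F (up c)) i := ⟨_, fun _ _ => rfl⟩
  have c3 : ∀ i c, χ i c ^ 3 = 1 := fun i c => hχ i c ▸ (ht _ (m c)).1 i
  have cm : ∀ i c d, χ i (c + d) = χ i c * χ i d := fun i c d => by
    rw [hχ, hχ, hχ, up_add, map_mul, (ht _ (m c)).2.1 _ (m d)]; rfl
  have wt : ∀ i, ∃ j, ∀ c, χ j c = 1 → χ i (ι * c) = 1 := fun i => by
    let x := h⁻¹ (R.ρ (π F (dg g))⁻¹ (h (Pi.single (.inr (.inl i)) 1)))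
    have a : ∀ c, tor (t (π F (up c))) x = χ i (ι * c) • x := fun c => h.injective (by
      rw [← (ht _ (m c)).2.2, map_smul, show h x = _ from h.apply_symm_apply _, ← R.ρ_mul,
        show π F (up c) * (π F (dg g))⁻¹ = (π F (dg g))⁻¹ * π F (up (ι * c)) by rw [hι, ← cj_up]; group, R.ρ_mul,
        (ht _ (m _)).2.2, ← map_smul, ← map_smul, hχ]
      congr 2
      ext (_ | j | j) <;> simp [tor, Pi.single_apply]
      split_ifs with e <;> simp [e])
    obtain ⟨k, hk⟩ := Function.ne_iff.1 (show x ≠ 0 by simp [x])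
    rcases k with _ | j | j
    · exact ⟨0, fun c _ => (mul_eq_right₀ hk).1 (congrFun (a c) (.inl ())).symm⟩
    · exact ⟨j, fun c e => (mul_right_cancel₀ hk (congrFun (a c) (.inr (.inl j)))).symm.trans ((hχ j c).symm.trans e)⟩
    · exact ⟨j, fun c e => (mul_right_cancel₀ hk (congrFun (a c) (.inr (.inr j)))).symm.trans (by rw [← hχ, e, inv_one])⟩
  choose f hf using wt
  have kr : ∀ j c, c ≠ 0 → ∃ d, d ≠ 0 ∧ χ j d = 1 ∧ ∀ i, χ i c = 1 → χ i (ι * c) = 1 → χ i d = 1 := fun j c c0 => by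
    rcases mu3 (c3 j c) (c3 j (ι * c)) with e | e | e | e
    · exact ⟨c, c0, e, fun _ a _ => a⟩
    · exact ⟨_, mul_ne_zero (by grind) c0, e, fun _ _ a => a⟩
    · exact ⟨ι * c + c + c, by grind, by rwa [cm, cm], fun i a b => by rw [cm, cm, a, b, mul_one, mul_one]⟩
    · exact ⟨ι * c + c, by grind, by rwa [cm], fun i a b => by rw [cm, a, b, mul_one]⟩
  obtain ⟨c, c0, i, j, ij, hi', hj⟩ : ∃ c, c ≠ 0 ∧ ∃ i j, i ≠ j ∧ χ i c = 1 ∧ χ j c = 1 := by
    by_contra! n
    obtain ⟨i, e⟩ := (by decide : ∀ f : Fin 3 → Fin 3, (∀ i, f (f i) = i) → ∃ i, f i = i) f fun i => by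
      obtain ⟨d, d0, a, -⟩ := kr (f (f i)) 1 one_ne_zero
      have b := hf _ _ (hf _ _ a)
      rw [show ι * (ι * d) = d + d by grind, cm] at b
      by_contra e
      exact n d d0 _ _ e a (by have := c3 i d; grind)
    obtain ⟨c, c0, a, -⟩ := kr i 1 one_ne_zero
    obtain ⟨d, d0, b, k⟩ := kr (i + 1) c c0
    exact n d d0 _ _ ((by decide : ∀ i : Fin 3, i + 1 ≠ i) i) b (k i a (hf i c (e.symm ▸ a)))
  obtain ⟨k, hk⟩ := (by decide : ∀ i j : Fin 3, i ≠ j → ∃ k, ∀ l, l ≠ k → l = i ∨ l = j) i j ij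
  have r2 : R.r (π F (up c)) ≤ 2 := by
    refine (Submodule.finrank_mono (t := LinearMap.range ((LinearMap.toSpanSingleton K _ (h (Pi.single (.inr (.inl k)) 1))).coprod
      (LinearMap.toSpanSingleton K _ (h (Pi.single (.inr (.inr k)) 1))))) ?_).trans ((LinearMap.finrank_range_le _).trans (by simp))
    rintro _ ⟨x, rfl⟩
    obtain ⟨x, rfl⟩ := h.surjective x
    refine ⟨((χ k c - 1) * x (.inr (.inl k)), ((χ k c)⁻¹ - 1) * x (.inr (.inr k))), ?_⟩
    have a : ∀ l, l ≠ k → t (π F (up c)) l = 1 := fun l e => by rcases hk l e with rfl | rfl <;> rwa [← hχ]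
    simp only [LinearMap.coprod_apply, LinearMap.toSpanSingleton_apply, LinearMap.sub_apply, LinearEquiv.coe_coe,
      (ht _ (m c)).2.2, Module.End.one_apply, ← map_smul, ← map_add, ← map_sub, hχ]
    congr 1
    generalize t (π F (up c)) = τ at a ⊢
    ext (_ | l | l)
    · simp [tor]
    all_goals by_cases e : l = k <;> simp [tor, e, a, sub_mul]
  obtain ⟨v, v0, a1, a2, a3⟩ := fx3 (R.ρ (π F (up c))) (R.ρ (π F (up (ι * c))))
    (R.ρ (π F (wy F) * π F (up c) * (π F (wy F))⁻¹)) (by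
      have := R.r_conj (π F (wy F)) (π F (up c))
      have := R.r_isConj (up_conj (g : F) g.ne_zero (congrArg (· * c) hι.symm))
      rw [finrank_V]; simp only [Rp.r] at *; omega)
  rw [← map_inv, ← map_mul, ← map_mul] at a3
  refine v0 (hi.fixed fun x => (top_of (H := R.St v) (fun s => ?_) a3 (by simpa [wy_inv, wy_val, up_val] using c0)).ge (mem_top x))
  obtain ⟨a, b, e⟩ : ∃ a b : ℤ, s = a * c + b * (ι * c) := by
    obtain ⟨s, rfl⟩ : ∃ s', s = s' * c := ⟨s / c, (div_mul_cancel₀ _ c0).symm⟩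
    have p := FiniteField.pow_card s
    rw [h9] at p
    have : (s - 0) * (s - 1) * (s - -1) * (s - ι) * (s - -ι) * (s - (1 + ι)) * (s - (1 - ι)) * (s - (-1 + ι)) *
      (s - (-1 - ι)) = 0 := by grind
    simp only [mul_eq_zero, sub_eq_zero] at this
    rcases this with (((((((e | e) | e) | e) | e) | e) | e) | e) | e <;> rw [e]
    exacts [⟨0, 0, by simp⟩, ⟨1, 0, by simp⟩, ⟨-1, 0, by simp⟩, ⟨0, 1, by simp⟩, ⟨0, -1, by simp⟩,
      ⟨1, 1, by push_cast; ring⟩, ⟨1, -1, by push_cast; ring⟩, ⟨-1, 1, by push_cast; ring⟩, ⟨-1, -1, by push_cast; ring⟩]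
  rw [e, up_add, map_mul, ← up_zpow, ← up_zpow]
  exact mul_mem (zpow_mem (R.mem_St.2 a1) a) (zpow_mem (R.mem_St.2 a2) b)

theorem l2a (w7 : W7.{u, 0}) (ak : AK.{u, 0}) (tr : TR.{u, 0}) : L2A.{u} := fun _ _ _ _ _ _ R =>
  ⟨l2a1 w7 R, l2a2 R, l2a3 ak R, l2a4 tr R⟩

end H24.O7
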