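/-
S5815, piece G23: the group `G₂(3)`.
-/
import Cfsg.Agent.H26.O7M
import Cfsg.Agent.H26.O7S
import Cfsg.Agent.H16.L.G23

set_option autoImplicit false

open Cfsg Subgroup H26.O7 H16 H16.G23
namespace H24.O7
universe u

theorem cl_ab {G : Type*} [Group G] {S : Set G} {n : ℕ} (h : ∀ a ∈ S, a ^ n = 1) (c : ∀ a ∈ S, ∀ b ∈ S, a * b = b * a) :
    (∀ a ∈ closure S, a ^ n = 1) ∧ ∀ a ∈ closure S, ∀ b ∈ closure S, a * b = b * a := by
  have k : ∀ a ∈ closure S, ∀ b ∈ closure S, a * b = b * a := fun a ha b hb =>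
    (show closure S ≤ centralizer (closure S : Set G) from (closure_le _).2 fun x hx y hy =>
      ((show closure S ≤ centralizer S from (closure_le _).2 fun y hy x hx => c x hx y hy) hy x hx).symm) hb a ha
  refine ⟨fun a ha => ?_, k⟩
  induction ha using closure_induction with
  | mem x hx => exact h x hx
  | one => exact one_pow _
  | mul x y hx hy ix iy => rw [Commute.mul_pow (k x hx y hy), ix, iy, one_mul]
  | inv x _ ix => rw [inv_pow, ix, inv_one]

namespace G23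
noncomputable def g' (k : ℕ) : gen g 6 := if h : k < 6 then ⟨g k, mem_gen g h⟩ else 1
theorem g'_val {k : ℕ} (hk : k < 6) : (g' k).1 = g k := by rw [g', dif_pos hk]
theorem act' : Act g' (ptF 364) P 364 6 := fun k hk i hi =>
  ⟨(act k hk i hi).1, by rw [Subgroup.smul_def, g'_val hk]; exact (act k hk i hi).2⟩
theorem base' (A : Subgroup (gen g 6)) : IsBase A (ptF 364) B := fun a _ h => Subtype.ext (isBase a.1 a.2 h)
theorem top : gen g' 6 = ⊤ := eq_top_iff.2 fun a _ => by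
  obtain ⟨b, hb, e⟩ := (gen_le (A := (gen g' 6).map (gen g 6).subtype)).2
    (fun k hk => ⟨g' k, mem_gen g' hk, g'_val hk⟩) a.2
  exact Subtype.ext e ▸ hb
theorem pt_eq {G : Type*} [Group G] [MulAction G (Fin 364)] {h : ℕ → G} {T : ℕ → ℕ → ℕ} {K : ℕ}
    (a : Act h (ptF 364) T 364 K) {W W' : List ℕ} (l : ltAll K W = 0) (l' : ltAll K W' = 0) (e : evA h W = evA h W') :
    apW T W 4 = apW T W' 4 := by
  have a1 := a.apW (ltAll_zero l) (i := 4) (by decide)
  have a2 := a.apW (ltAll_zero l') (i := 4) (by decide)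
  exact ptF_inj 364 _ a1.1 _ a2.1 (by rw [← a1.2, ← a2.2, e])

def Ws : List (List ℕ) := [[0, 0], [2, 2], [0, 2, 0, 2], [0, 4, 2, 2, 4, 3, 3, 4]]
noncomputable def h (k : ℕ) : gen g 6 := evA g' (nth [] Ws k)
theorem acth : Act h (ptF 364) (fun k => apW P (nth [] Ws k)) 364 4 := fun k _ _ hi =>
  act'.apW (nth_lt (by decide +kernel) k) hi
def w (n : ℕ) : List ℕ :=
  List.replicate (n % 3) 0 ++ List.replicate (n / 3 % 3) 1 ++ List.replicate (n / 9 % 3) 2 ++ List.replicate (n / 27) 3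

theorem e81 : ∃ A : Subgroup (gen g 6), (∀ a ∈ A, a ^ 3 = 1) ∧ (∀ a ∈ A, ∀ b ∈ A, a * b = b * a) ∧ 28 ≤ Nat.card A := by
  have c1 : ∀ k < 4, powL P 6 B (nth [] Ws k) 3 = 0 := by decide +kernel
  have c2 : ∀ k < 4, ∀ l < 4, eqL P 6 B (nth [] Ws k ++ nth [] Ws l) (nth [] Ws l ++ nth [] Ws k) = 0 := by
    decide +kernel
  have c3 : ∀ n < 28, ltAll 4 (w n) = 0 := by decide +kernel
  have c4 : ∀ m < 28, ∀ n < 28, apW (fun k => apW P (nth [] Ws k)) (w m) 4 = apW (fun k => apW P (nth [] Ws k)) (w n) 4 →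
      m = n := by decide +kernel
  obtain ⟨k1, k2⟩ := cl_ab (S := h '' Set.Iio 4) (n := 3)
    (by rintro _ ⟨k, hk, rfl⟩; exact (powL_eq_one act' Blt (base' _) (c1 k hk)).2)
    (by
      rintro _ ⟨k, hk, rfl⟩ _ ⟨l, hl, rfl⟩
      have := eqL_sound act' Blt (base' _) (c2 l hl k hk)
      rwa [evA_append, evA_append] at this)
  refine ⟨gen h 4, k1, k2, ?_⟩
  have := Nat.card_le_card_of_injective (fun n : Fin 28 => (⟨evA h (w n), evA_mem_gen h (ltAll_zero (c3 _ n.2))⟩ : gen h 4))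
    fun m n e => Fin.ext (c4 _ m.2 _ n.2 (pt_eq acth (c3 _ m.2) (c3 _ n.2) (congrArg Subtype.val e)))
  rwa [Nat.card_eq_fintype_card, Fintype.card_fin] at this

theorem xy : evA g' [5] * evA g' [1, 4] = evA g' [1, 4, 5] := (evA_append g' [1, 4] [5]).symm

theorem gn : closure {evA g' [5], evA g' [1, 4]} = ⊤ := eq_top_iff.2 (top ▸
  slpX_sound (K₀ := 6) (K₁ := 0) (m := 2) act' Blt (base' _) (Ws := [[5], [1, 4], [4, 0]])
    (L := [(8, [7]), (4, [6, 7, 6, 7, 6, 7, 6, 7, 6, 8, 6, 7, 6, 8, 6, 7, 6, 8, 6, 8, 6, 8, 6, 7, 6, 8, 6, 7, 6, 7, 6, 8, 6, 8, 6]),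
      (5, [6]), (0, [7, 4]), (1, [0]), (2, [8, 6, 8, 6, 8, 6, 0, 0, 6, 4, 1, 7, 6, 0]), (3, [2])])
    (by decide +kernel) le_rfl (by decide) (gen_le.2 fun _ hk => absurd hk (by omega)) fun i hi =>
      subset_closure (by interval_cases i <;> simp))

theorem cj : IsConj (evA g' [1, 4, 5]) (evA g' [1, 4, 5] ^ 3) := isConj_iff.2 ⟨evA g' [0, 2, 4, 3, 5, 0, 3, 4, 1, 2], by
  rw [mul_inv_eq_iff_eq_mul, pow_three', ← evA_append, ← evA_append, ← evA_append, ← evA_append]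
  exact eqL_sound act' Blt (base' _) (by decide +kernel)⟩

theorem perf : commutator (gen g 6) = ⊤ := perf_of_simple simple fun c => by
  have := c.is_comm.comm (evA g' [0]) (evA g' [2])
  rw [← evA_append, ← evA_append] at this
  exact absurd (pt_eq act' (by decide +kernel) (by decide +kernel) this) (by decide +kernel)
end G23

theorem g23 (w7 : W7.{u, 0}) (hz : HZ.{u, 0}) : H26.O7.G23.{u} := by
  intro F _ _ hF
  have := Fact.mk Nat.prime_three
  obtain ⟨e⟩ := LG23.equiv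
  obtain ⟨f⟩ := LG23.congr (ZMod.ringEquivOfPrime F Nat.prime_three hF)
  refine Fam.iso (fun K _ _ p _ _ R hi hn => ?_) (e.trans f).symm
  by_cases h3 : (3 : K) = 0
  · refine (hz K p _ R _ _ ?_ (powL_eq_one G23.act' Blt (G23.base' _) (by decide +kernel)).2 ?_).2 hi hn G23.perf G23.gn
      (.inr (.inl h3))
    · rw [← sq]; exact (powL_eq_one G23.act' Blt (G23.base' _) (by decide +kernel)).2
    · rw [G23.xy]
      exact .inr (.inr (.inl ⟨(powL_eq_one G23.act' Blt (G23.base' _) (by decide +kernel)).2, G23.cj⟩))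
  · obtain ⟨A, h1, h2, h4⟩ := G23.e81
    have := ((w7 K _ R).1 A 3 (by decide) h3 h1 h2).1
    omega

end H24.O7
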