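/-
S3432, amalgam part: definitions and chunk statements (see notes/SP8.md).
All element orders of `G` are at most 8 (`O8 G`).
-/
import Cfsg.Agent.H19.Amb6
import Cfsg.Agent.H9.Thompson
import Cfsg.Prelude.Def_BaumannBlocks
import Cfsg.Prelude.Def_Quasithin
import Cfsg.Prelude.Def_CaseTheorems

set_option autoImplicit false

namespace H24.OA
open Cfsg Subgroup H19

universe u

section defs
variable {G : Type*} [Group G]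

/-- all element orders are at most 8 -/
def O8 (G : Type*) [Group G] : Prop := ∀ g : G, orderOf g ≤ 8
/-- `O₂(M)` -/
abbrev O2 (M : Subgroup G) : Subgroup G := Oc {2} M
/-- `Ω₁(Z(X))` -/
abbrev Om (X : Subgroup G) : Subgroup G := Ohm1 2 Z(X)
/-- `V(M) = Ω₁(Z(O₂(M)))` -/
abbrev Vm (M : Subgroup G) : Subgroup G := Om (O2 M)
/-- `K` has characteristic 2 -/
def Ch (K : Subgroup G) : Prop := K ⊓ C(O2 K) ≤ O2 K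
/-- all 2-locals have characteristic 2 -/
def C2 (G : Type*) [Group G] : Prop := ∀ U : Subgroup G, PG 2 U → U ≠ ⊥ → Ch N(U)
/-- order 5 or 7 -/
def P57 (y : G) : Prop := orderOf y = 5 ∨ orderOf y = 7
/-- characteristic 2, solvable, no elements of order 5 or 7 -/
structure K23 (K : Subgroup G) : Prop where
  ch : Ch K
  sol : Sol K
  no : ∀ y ∈ K, ¬ P57 y
/-- `t` is an involution modulo `Q` -/
def Iv (Q : Subgroup G) (t : G) : Prop := t ∉ Q ∧ t * t ∈ Q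
/-- generated by involutions -/
def GI (T : Subgroup G) : Prop := T ≤ closure {t | t ∈ T ∧ t * t = 1}
/-- maximal among the subgroups with nontrivial `O₂` (a maximal 2-local subgroup) -/
def Mx (M : Subgroup G) : Prop := O2 M ≠ ⊥ ∧ ∀ K, M ≤ K → O2 K ≠ ⊥ → K = M
/-- `⟨a, b⟩` is elementary abelian of order 9 -/
structure E9p (a b : G) : Prop where
  oa : orderOf a = 3
  ob : orderOf b = 3
  comm : a * b = b * a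
  ne : b ∉ zpowers a
/-- `T⟨a⟩/F` is symmetric of degree 3 -/
structure S3p (T F : Subgroup G) (a : G) : Prop where
  le : F ≤ T
  idx : F.relIndex T = 2
  ord : orderOf a = 3
  nm : a ∈ N(F)
  inv : ∀ t ∈ T, t ∉ F → t * a * t⁻¹ * a ∈ F
/-- `D / O₂(K)` is a normal, self-centralizing Sylow 3-subgroup of `K / O₂(K)` -/
structure Dd (K D : Subgroup G) : Prop where
  le : O2 K ≤ D
  nl : D ⊴ K
  mem : ∀ a ∈ K, a ∈ D ↔ a ^ 3 ∈ O2 K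
  cen : ∀ t ∈ K, (∀ a ∈ D, t * a * t⁻¹ * a⁻¹ ∈ O2 K) → t ∈ D
  sup : ∀ T, Syl 2 T K → D ⊔ T = K
/-- a solvable minimal parabolic -/
structure Mp (H T D : Subgroup G) : Prop where
  k23 : K23 H
  dd : Dd H D
  syl : Syl 2 T H
  nn : ¬ H ≤ N(T)
  inv : ∀ t ∈ T, Iv (O2 H) t → ∀ a ∈ D, t * a * t⁻¹ * a ∈ O2 H
  max : ∀ L, T ≤ L → L ≤ H → L = T ∨ L = H
  s3 : GI T → ∃ a, S3p T (O2 H) a ∧ H = T ⊔ zpowers a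
/-- the five simple groups -/
def K5 (X : Type*) [Group X] : Prop :=
  Nonempty (X ≃* alternatingGroup (Fin 5)) ∨ Nonempty (X ≃* alternatingGroup (Fin 6)) ∨
  Nonempty (X ≃* Matrix.ProjectiveSpecialLinearGroup (Fin 2) (ZMod 7)) ∨
  Nonempty (X ≃* alternatingGroup (Fin 7)) ∨
  ∃ (F : Type) (_ : Field F) (_ : Fintype F), Fintype.card F = 4 ∧
    Nonempty (X ≃* Matrix.ProjectiveSpecialLinearGroup (Fin 3) F)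
/-- the proper simple sections are known -/
def IH (G : Type*) [Group G] : Prop :=
  ∀ R L : Subgroup G, R ⊴ L → L ≠ ⊤ → IsSimpleGroup ↥(quo R L) → ¬ IsMulCommutative ↥(quo R L) →
    K5 ↥(quo R L)
/-- normal subgroups not in `O₂(M)` contain elements of order 5 or 7 -/
def Nm (M : Subgroup G) : Prop := ∀ N, N ⊴ M → N ≤ O2 M ∨ ∃ y ∈ N, P57 y
/-- `L / O₂(M)` is the socle of `M / O₂(M)`, of index at most 2 -/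
structure Al (M L : Subgroup G) : Prop where
  le : O2 M ≤ L
  nl : L ⊴ M
  idx : L.relIndex M ∣ 2
  soc : ∀ N, N ⊴ M → N ≤ O2 M ∨ L ≤ N ⊔ O2 M
  sev : (∃ y ∈ M, orderOf y = 7) → L = M
/-- `M / Q` has 2-rank at most 2 -/
def R4 (M Q : Subgroup G) : Prop := ∀ A, A ≤ M → (∀ a ∈ A, a * a ∈ Q) → Q.relIndex A ≤ 4
/-- basic data of a nonsolvable 2-local -/
structure Bs (M T : Subgroup G) : Prop where
  ch : Ch M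
  ne : O2 M ≠ ⊥
  nm : Nm M
  r4 : R4 M (O2 M)
  syl : Syl 2 T M
  y : ∃ y ∈ M, P57 y
/-- involutions of `M / O₂(M)` act freely on `V` -/
structure F5 (M : Subgroup G) : Prop where
  y : ∃ y ∈ M, orderOf y = 5
  ex : ∃ t ∈ M, Iv (O2 M) t
  sq : ∀ t ∈ M, Iv (O2 M) t → #(Vm M) = #(Vm M ⊓ C[t]) ^ 2
/-- `A` is a `k`-offender on `V` -/
structure Of (k : ℕ) (M A : Subgroup G) : Prop where
  le : A ≤ M
  el : Abelem 2 A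
  nq : ¬ A ≤ O2 M
  card : #(Vm M) ≤ k * (O2 M).relIndex A * #(Vm M ⊓ C(A))
/-- `M / Q` behaves like `A₅` -/
structure T5 (M Q T : Subgroup G) (x w : G) : Prop where
  le : Q ≤ T
  idx : Q.relIndex T = 4
  el : ∀ t ∈ T, t * t ∈ Q
  xm : x ∈ M
  xo : orderOf x = 3
  xn : x ∈ N(T)
  fp : ∀ t ∈ T, x * t * x⁻¹ * t⁻¹ ∈ Q → t ∈ Q
  ov : ∀ L, T ≤ L → L ≤ M → L = T ∨ L = T ⊔ zpowers x ∨ L = M
  wm : w ∈ M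
  wx : w * x * w⁻¹ * x ∈ Q
  wn : w ∉ T ⊔ zpowers x
  sim : ∀ N, N ⊴ M → N ≤ Q ∨ N ⊔ Q = M
/-- `M / O₂(M) ≅ A₅` -/
def I5 (M : Subgroup G) : Prop := Nonempty (↥(quo (O2 M) M) ≃* alternatingGroup (Fin 5))
/-- socle `A₅` -/
def A5s (M : Subgroup G) : Prop :=
  ∃ L, Al M L ∧ Nonempty (↥(quo (O2 M) L) ≃* alternatingGroup (Fin 5))
/-- `M / Q` behaves like `A₆` or `L₃(2)`: dihedral Sylow subgroup of order 8, two parabolics `S₄` -/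
structure TD (M Q T F₁ F₂ : Subgroup G) (x₁ x₂ : G) : Prop where
  q1 : Q ≤ F₁
  q2 : Q ≤ F₂
  i1 : Q.relIndex F₁ = 4
  i2 : Q.relIndex F₂ = 4
  ne : F₁ ≠ F₂
  e1 : ∀ f ∈ F₁, f * f ∈ Q
  e2 : ∀ f ∈ F₂, f * f ∈ Q
  iv : ∀ t ∈ T, t * t ∈ Q → t ∈ F₁ ∨ t ∈ F₂
  s1 : S3p T F₁ x₁
  s2 : S3p T F₂ x₂
  m1 : x₁ ∈ M
  m2 : x₂ ∈ M
  f1 : ∀ f ∈ F₁, x₁ * f * x₁⁻¹ * f⁻¹ ∈ Q → f ∈ Q
  f2 : ∀ f ∈ F₂, x₂ * f * x₂⁻¹ * f⁻¹ ∈ Q → f ∈ Q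
  ov : ∀ L, T ≤ L → L ≤ M → L = T ∨ L = T ⊔ zpowers x₁ ∨ L = T ⊔ zpowers x₂ ∨ L = M
  cn : ∀ s ∈ M, ∀ t ∈ M, Iv Q s → Iv Q t → ∃ m ∈ M, m * s * m⁻¹ * t⁻¹ ∈ Q
  sim : ∀ N, N ⊴ M → N ≤ Q ∨ N ⊔ Q = M
/-- extra facts for `L₃(2)` -/
structure L3 (M Q F₁ F₂ : Subgroup G) : Prop where
  y : ∃ y ∈ M, orderOf y = 7
  g3 : ∀ t ∈ M, Iv Q t → ∃ m ∈ M, ∃ n ∈ M,
    Q ⊔ zpowers t ⊔ zpowers (m * t * m⁻¹) ⊔ zpowers (n * t * n⁻¹) = M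
  gF : ∃ m ∈ M, F₁ ⊔ cj m F₂ = M
/-- `V` is small, and `F₁`, `F₂` are named so that `C_V(F₁) = Ω₁(Z(T))` -/
structure Sm (M T F₁ F₂ : Subgroup G) : Prop where
  vz : Vm M ⊓ C(F₁) ≤ C(T)
  kd : (#(Vm M) = 8 ∧ #(Om T) = 2 ∧ #(Vm M ⊓ C(F₂)) = 4 ∧ L3 M (O2 M) F₁ F₂) ∨
    (#(Vm M) = 16 ∧ #(Om T) = 2 ∧ #(Vm M ⊓ C(F₂)) = 4 ∧ F5 M) ∨
    (#(Vm M) = 64 ∧ #(Om T) = 4 ∧ #(Vm M ⊓ C(F₂)) = 16)
  off : #(Vm M) ≠ 8 → ∀ A, A ≤ T → Of 1 M A → A ⊔ O2 M = F₂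
/-- hypotheses of Lemma K -/
structure LKh (M T F : Subgroup G) (x : G) : Prop where
  q : O2 M ≤ F
  f : F ≤ T
  i4 : (O2 M).relIndex F = 4
  i2 : F.relIndex T ∣ 2
  xm : x ∈ M
  xo : orderOf x = 3
  xn : x ∈ N(F)
  fp : ∀ f ∈ F, x * f * x⁻¹ * f⁻¹ ∈ O2 M → f ∈ O2 M
  inv : ∀ t ∈ T, t ∉ F → t * x * t⁻¹ * x ∈ F
  vz : Vm M ⊓ C(F) ≤ C(T)
  xz : x ∈ C(Om T)
  cm : M ⊓ C(Om T) ≤ T ⊔ zpowers x
/-- conclusions of Lemma K -/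
structure LKc (T F : Subgroup G) (x : G) : Prop where
  le : F ≤ O2 C(Om T)
  inf : T ⊓ O2 C(Om T) ≤ F
  nt : N(T) ≤ N(F)
  syl : Syl 2 T ⊤ → C(Om T) ≤ T ⊔ zpowers x
  gen : F ≠ T → C(Om T) ≤ O2 C(Om T) ⊔ (T ⊔ zpowers x)
/-- the element `g` of Theorem B -/
structure G8 (M T F : Subgroup G) (x g : G) : Prop where
  gz : g ∈ C(Om T)
  gt : g ∈ N(T)
  gf : g ∈ N(F)
  gm : g ∉ M
  g2 : g * g ∈ F
  gx : x * g * x⁻¹ * g⁻¹ ∈ F ∨ g * (x * g * x⁻¹) * (x⁻¹ * g * x) ∈ F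
/-- type D with small `V` over a Sylow 2-subgroup of `G` -/
structure Dt (M T F₁ F₂ : Subgroup G) (x₁ x₂ : G) : Prop where
  bs : Bs M T
  td : TD M (O2 M) T F₁ F₂ x₁ x₂
  sm : Sm M T F₁ F₂
  gi : GI T
  xz : x₁ ∈ C(Om T)
  cz : C(Om T) ≤ T ⊔ zpowers x₁
  nt : N(T) ≤ M
/-- sectional 2-rank at most 4 -/
abbrev Done (G : Type*) [Group G] : Prop := SectionalPRankLE 2 4 G

end defs

/-! ### Section 0: 3-elements acting on 2-groups -/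

def TR : Prop := ∀ (G : Type u) [Group G] [Finite G], O8 G → ∀ (R : Subgroup G) (g d t : G), PG 2 R →
  orderOf g = 3 → d ^ 3 = 1 → g * d = d * g → g ∈ N(R) → d ∈ N(R) → t ∈ N(R) → PiE {2} t →
  t * g * t⁻¹ * g⁻¹ ∈ R → t * d * t⁻¹ * d ∈ R → R ⊓ C[g] ≤ C[d]

def E9 : Prop := ∀ (G : Type u) [Group G] [Finite G], O8 G → ∀ (R : Subgroup G) (a b t : G), PG 2 R →
  E9p a b → a ∈ N(R) → b ∈ N(R) → t ∈ N(R) → PiE {2} t →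
  t * a * t⁻¹ * a⁻¹ ∈ R → t * b * t⁻¹ * b⁻¹ ∈ R → ∃ r ∈ R, r * t ∈ C(R)

def LP : Prop := ∀ (G : Type u) [Group G] [Finite G], O8 G → ∀ (R : Subgroup G) (a b : G), PG 2 R →
  E9p a b → a ∈ N(R) → b ∈ N(R) → a ∈ C(Om R) → b ∈ C(Om R) → Ab R

def S33 : Prop := ∀ (G : Type u) [Group G] [Finite G], O8 G → ∀ (R : Subgroup G) (a b : G), PG 2 R →
  E9p a b → a ∈ N(R) → b ∈ N(R) → R ⊓ C[a] ≤ C[b] → R ⊓ C[b] ≤ C[a] → Abelem 2 R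

def S23 : Prop := ∀ (G : Type u) [Group G] [Finite G], O8 G → ∀ K : Subgroup G, K23 K → ∃ D, Dd K D

def D8 : Prop := ∀ (G : Type u) [Group G] [Finite G], O8 G → ∀ (K T Fa Fb : Subgroup G) (a b : G),
  K23 K → T ≤ K → PG 2 T → S3p T Fa a → S3p T Fb b → a ∈ K → b ∈ K → Fa ≠ Fb →
  Abelem 2 (Fa ⊓ Fb) ∧ ∀ g ∈ K, g ∈ N(T) → g * g ∈ T → g * a * g⁻¹ ≠ b

def MP : Prop := ∀ (G : Type u) [Group G] [Finite G], O8 G → ∀ H T M : Subgroup G,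
  K23 H → Syl 2 T H → ¬ H ≤ M → (∀ L, T ≤ L → L < H → L ≤ M) → ¬ H ≤ N(T) → ∃ D, Mp H T D

def W73 : Prop := ∀ (G : Type u) [Group G] [Finite G], O8 G → ∀ (V : Subgroup G) (x y : G),
  Abelem 2 V → orderOf x = 3 → orderOf y = 7 → x ∈ N(V) → y ∈ N(V) →
  x * y * x⁻¹ * (y ^ 2)⁻¹ ∈ C(V) → V ⊓ C[x] = ⊥ → V = ⊥

def N76 : Prop := ∀ (G : Type u) [Group G] [Finite G], O8 G → ∀ (R : Subgroup G) (y : G),
  PG 2 R → R ≠ ⊥ → orderOf y = 7 → y ∈ N(R) →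
  (∀ z ∈ N(R), z * y * z⁻¹ * (y ^ 3)⁻¹ ∉ R) ∧
  ∀ x ∈ N(R), ∀ e ∈ N(R), orderOf x = 3 → PiE {2} e → x * y * x⁻¹ * (y ^ 2)⁻¹ ∈ R →
    e * y * e⁻¹ * y ∈ R → e * x * e⁻¹ * x⁻¹ ∉ R

def S57 : Prop := ∀ (G : Type u) [Group G] [Finite G], O8 G → ∀ (K : Subgroup G) (y : G),
  Ch K → Sol K → y ∈ K → P57 y →
  K ≤ N(O2 K ⊔ zpowers y) ∧ ⁅K, K⁆ ≤ O2 K ⊔ zpowers y ∧
    ∀ k ∈ K, k * y * k⁻¹ * y⁻¹ ∈ O2 K → k ∈ O2 K ⊔ zpowers y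

/-! ### Section 1: nonsolvable 2-locals -/

def NS0 : Prop := ∀ (G : Type u) [Group G] [Finite G], O8 G → IH G → ∀ K : Subgroup G,
  K ≠ ⊤ → Ch K → ¬ Sol K → Nm K ∧ (∃ y ∈ K, P57 y) ∧ ∃ L, Al K L ∧ K5 ↥(quo (O2 K) L)

def N7 : Prop := ∀ (G : Type u) [Group G] [Finite G], O8 G → ∀ R L : Subgroup G, PG 2 R → R ≠ ⊥ →
  R ⊴ L → Nonempty (↥(quo R L) ≃* alternatingGroup (Fin 7)) → False

def N34 : Prop := ∀ (G : Type u) [Group G] [Finite G], O8 G → ∀ R L : Subgroup G, PG 2 R → R ≠ ⊥ →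
  R ⊴ L → ∀ (F : Type) [Field F] [Fintype F], Fintype.card F = 4 →
  Nonempty (↥(quo R L) ≃* Matrix.ProjectiveSpecialLinearGroup (Fin 3) F) → False

/-- pull back along `M → M / Q ≅ X` -/
def PB : Prop := ∀ (G : Type u) [Group G] [Finite G], O8 G → ∀ (X : Type) [Group X] [Finite X]
  (M Q T : Subgroup G), PG 2 Q → Q ⊴ M → Syl 2 T M → Nonempty (↥(quo Q M) ≃* X) →
  (R4 (⊤ : Subgroup X) ⊥ → R4 M Q) ∧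
  (∀ (T₀ : Subgroup X) (x w : X), Syl 2 T₀ ⊤ → T5 ⊤ ⊥ T₀ x w → ∃ x' w', T5 M Q T x' w') ∧
  (∀ (T₀ F₁ F₂ : Subgroup X) (x₁ x₂ : X), Syl 2 T₀ ⊤ → TD ⊤ ⊥ T₀ F₁ F₂ x₁ x₂ →
    ∃ F₁' F₂' x₁' x₂', TD M Q T F₁' F₂' x₁' x₂' ∧ (L3 ⊤ ⊥ F₁ F₂ → L3 M Q F₁' F₂'))

def XA5 : Prop := R4 (⊤ : Subgroup (alternatingGroup (Fin 5))) ⊥ ∧
  ∃ (T : Subgroup (alternatingGroup (Fin 5))) (x w : alternatingGroup (Fin 5)),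
    Syl 2 T ⊤ ∧ T5 ⊤ ⊥ T x w

def XA6 : Prop := R4 (⊤ : Subgroup (alternatingGroup (Fin 6))) ⊥ ∧
  ∃ (T F₁ F₂ : Subgroup (alternatingGroup (Fin 6))) (x₁ x₂ : alternatingGroup (Fin 6)),
    Syl 2 T ⊤ ∧ TD ⊤ ⊥ T F₁ F₂ x₁ x₂

def XL : Prop := R4 (⊤ : Subgroup (Matrix.ProjectiveSpecialLinearGroup (Fin 2) (ZMod 7))) ⊥ ∧
  (∃ x y : Matrix.ProjectiveSpecialLinearGroup (Fin 2) (ZMod 7),
    orderOf x = 3 ∧ orderOf y = 7 ∧ x * y * x⁻¹ = y ^ 2) ∧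
  ∃ (T F₁ F₂ : Subgroup (Matrix.ProjectiveSpecialLinearGroup (Fin 2) (ZMod 7)))
    (x₁ x₂ : Matrix.ProjectiveSpecialLinearGroup (Fin 2) (ZMod 7)),
    Syl 2 T ⊤ ∧ TD ⊤ ⊥ T F₁ F₂ x₁ x₂ ∧ L3 ⊤ ⊥ F₁ F₂

def N5 : Prop := ∀ (G : Type u) [Group G] [Finite G], O8 G → ∀ M L T : Subgroup G, O2 M ≠ ⊥ →
  Al M L → Nonempty (↥(quo (O2 M) L) ≃* alternatingGroup (Fin 5)) → Syl 2 T M →
  F5 M ∧ R4 M (O2 M) ∧
    ((I5 M ∧ ∃ x w, T5 M (O2 M) T x w) ∨ (Abelem 2 (O2 M) ∧ (O2 M).relIndex T ≤ 8))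

def N6 : Prop := ∀ (G : Type u) [Group G] [Finite G], O8 G → ∀ M L T : Subgroup G, O2 M ≠ ⊥ → Ch M →
  Al M L → Nonempty (↥(quo (O2 M) L) ≃* alternatingGroup (Fin 6)) → Syl 2 T M →
  F5 M ∧ R4 M (O2 M) ∧
    ((GI (O2 M) ∧ ∃ F₁ F₂ x₁ x₂, TD M (O2 M) T F₁ F₂ x₁ x₂) ∨ #(Vm M) ≠ 16)

def NL : Prop := ∀ (G : Type u) [Group G] [Finite G], O8 G → ∀ M L T : Subgroup G, O2 M ≠ ⊥ →
  Al M L → Nonempty (↥(quo (O2 M) L) ≃* Matrix.ProjectiveSpecialLinearGroup (Fin 2) (ZMod 7)) →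
  Syl 2 T M → R4 M (O2 M) ∧ GI (O2 M) ∧
    ∃ F₁ F₂ x₁ x₂, TD M (O2 M) T F₁ F₂ x₁ x₂ ∧ L3 M (O2 M) F₁ F₂

/-! ### small modules -/

def F2 : Prop := ∀ (G : Type u) [Group G] [Finite G], O8 G → ∀ M T : Subgroup G, Bs M T → F5 M →
  ((∃ A, Of 2 M A) ∨ #(Vm M) ≤ 2 * #(Om T)) → #(Vm M) = 16

def SV5 : Prop := ∀ (G : Type u) [Group G] [Finite G], O8 G → ∀ (M T : Subgroup G) (x w : G),
  Bs M T → F5 M → T5 M (O2 M) T x w → #(Vm M) = 16 →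
  (Om T ⊓ C[x] = ⊥ ∧ #(Om T) = 4) ∨ (LKh M T T x ∧ ∀ A, A ≤ T → ¬ Of 1 M A)

def SV6 : Prop := ∀ (G : Type u) [Group G] [Finite G], O8 G → ∀ (M T F₁ F₂ : Subgroup G) (x₁ x₂ : G),
  Bs M T → F5 M → TD M (O2 M) T F₁ F₂ x₁ x₂ → #(Vm M) = 16 → Sm M T F₁ F₂ ∨ Sm M T F₂ F₁

def SVL : Prop := ∀ (G : Type u) [Group G] [Finite G], O8 G → ∀ (M T F₁ F₂ : Subgroup G) (x₁ x₂ : G),
  Bs M T → TD M (O2 M) T F₁ F₂ x₁ x₂ → L3 M (O2 M) F₁ F₂ →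
  ((∃ A, Of 1 M A) ∨ #(Vm M) ≤ 8 * #(Om T)) → Sm M T F₁ F₂ ∨ Sm M T F₂ F₁

/-! ### wrappers of frozen statements -/

/-- S2751 -/
def GA : Prop := ∀ (G : Type u) [Group G] [Finite G] (T F F' : Subgroup G) (a a' : G), PG 2 T →
  S3p T F a → S3p T F' a' → T ⊔ zpowers a ≠ T ⊔ zpowers a' →
  #T ≤ 128 ∨ ∃ U : Subgroup G, U ≠ ⊥ ∧ U ≤ T ∧ T ⊔ zpowers a ≤ N(U) ∧ T ⊔ zpowers a' ≤ N(U) ∧
    ∀ g, cj g (T ⊔ zpowers a) = T ⊔ zpowers a' → cj g (T ⊔ zpowers a') = T ⊔ zpowers a → g ∈ N(U)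

/-- S1232 and a direct count -/
def DN : Prop := ∀ (G : Type u) [Group G] [Finite G] (M T : Subgroup G), Bs M T → Abelem 2 (O2 M) →
  (Mx M → #(O2 M) = 8 → Done G) ∧
  (Syl 2 T ⊤ → F5 M → #(O2 M) = 16 → (O2 M).relIndex T ≤ 8 → Done G)

/-- S3090 -/
def N90 : Prop := ∀ (G : Type u) [Group G] [Finite G], IsCharacteristicTwoType G →
  ∀ M T : Subgroup G, Mx M → Bs M T → A5s M → N(T) ≤ M ∨ Done G

/-- S2808 -/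
def AA : Prop := ∀ (G : Type u) [Group G] [Finite G], O8 G → ∀ (M M' T : Subgroup G) (x w x' w' : G),
  Mx M → Mx M' → M ≠ M' → Bs M T → Bs M' T → I5 M → I5 M' → T5 M (O2 M) T x w →
  T5 M' (O2 M') T x' w' → Abelem 2 (O2 M)

def CS : Prop := ∀ (G : Type u) [Group G] [Finite G], O8 G → ∀ M T : Subgroup G, Mx M → Bs M T →
  M ≠ ⊤ → C(Om T) ≤ M → cStarOf 2 T = ⊤ →
  (∃ A, A ≤ T ∧ Of 1 M A) ∧ ∃ U : Subgroup G, PG 2 U ∧ U ≠ ⊥ ∧ N(T) ≤ N(U) ∧ ¬ N(U) ≤ M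

/-! ### Sections 2-5 -/

def LK : Prop := ∀ (G : Type u) [Group G] [Finite G], O8 G → C2 G →
  ∀ (M T F : Subgroup G) (x : G), Mx M → Bs M T → LKh M T F x → LKc T F x

def TBa : Prop := ∀ (G : Type u) [Group G] [Finite G], O8 G →
  ∀ (M T F : Subgroup G) (x : G), Bs M T → LKh M T F x → LKc T F x → F ≠ T →
  ¬ C(Om T) ≤ M → ∃ g, G8 M T F x g

def TBb : Prop := ∀ (G : Type u) [Group G] [Finite G], O8 G →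
  ∀ (M T F₁ F₂ : Subgroup G) (g : G), Bs M T → GI (O2 M) → L3 M (O2 M) F₁ F₂ → #(Vm M) = 8 →
  g ∈ N(T) → ¬ cj g (Vm M) ≤ O2 M → Abelem 2 (O2 M)

def TBd : Prop := ∀ (G : Type u) [Group G] [Finite G], O8 G →
  ∀ (M T F₁ F₂ : Subgroup G) (x₁ x₂ g : G), Mx M → Bs M T → TD M (O2 M) T F₁ F₂ x₁ x₂ →
  #(Vm M) = 8 → #(Om T) = 2 → x₁ ∈ C(Om T) → G8 M T F₁ x₁ g → cj g (Vm M) ≤ O2 M →
  cj g F₂ = F₂ → False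

def TIa : Prop := ∀ (G : Type u) [Group G] [Finite G], O8 G → ∀ M T H D : Subgroup G,
  Bs M T → Mp H T D → ¬ Vm M ≤ O2 H → ∃ A, Of 2 M A ∧ (GI T → #(Vm M) ≤ 8 * #(Om T))

def TIb : Prop := ∀ (G : Type u) [Group G] [Finite G], O8 G → ∀ M T H D : Subgroup G,
  Mx M → Bs M T → Mp H T D → ¬ H ≤ M → Vm M ≤ O2 H →
  (∃ A, Of 1 M A) ∨ (∃ A, Of 2 M A ∧ (GI T → #(Vm M) ≤ 8 * #(Om T))) ∨ #(Vm M) ≤ 2 * #(Om T)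

def AL : Prop := ∀ (G : Type u) [Group G] [Finite G], O8 G → ∀ (M T K : Subgroup G) (x w : G),
  Bs M T → F5 M → T5 M (O2 M) T x w → Om T ⊓ C[x] = ⊥ → Ch K → Sol K → Syl 2 T K → x ∈ K →
  K ≤ N(T)

def T2a : Prop := ∀ (G : Type u) [Group G] [Finite G], O8 G → C2 G → ∀ T : Subgroup G, Syl 2 T ⊤ →
  (∀ M, Mx M → ¬ Sol M → T ≤ M → ∃ F₁ F₂ x₁ x₂, Dt M T F₁ F₂ x₁ x₂) →
  ∀ M K : Subgroup G, Mx M → ¬ Sol M → T ≤ M → Ch K → O2 K ≠ ⊥ → T ≤ K → ¬ K ≤ M →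
  ∃ F a, S3p T F a ∧ a ∉ M

def T2b : Prop := ∀ (G : Type u) [Group G] [Finite G], O8 G → C2 G → ∀ T : Subgroup G, Syl 2 T ⊤ →
  (∀ M, Mx M → ¬ Sol M → T ≤ M → ∃ F₁ F₂ x₁ x₂, Dt M T F₁ F₂ x₁ x₂) →
  ∀ (M F : Subgroup G) (a : G), Mx M → ¬ Sol M → T ≤ M → S3p T F a → a ∉ M → Done G

/-- the main statement of the amalgam part -/
def AM : Prop := ∀ (G : Type u) [Group G] [Finite G], O8 G → IsSimpleGroup G → ¬ IsMulCommutative G →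
  IsCharacteristicTwoType G → IH G → (∃ U : Subgroup G, PG 2 U ∧ U ≠ ⊥ ∧ ¬ Sol N(U)) →
  (∀ T : Sylow 2 G, cStarOf 2 (T : Subgroup G) = ⊤) → Done G

end H24.OA
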