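/-
S3432, amalgam part: basic kit, part 1 (elements, counting, characteristic 2).
-/
import Cfsg.Agent.H24.OA0
import Cfsg.Agent.S0144

set_option autoImplicit false
set_option linter.style.haveILetI false

namespace H24.OA
open Cfsg Subgroup H19

variable {G : Type*} [Group G] [Finite G]

theorem pe_iff {p : ℕ} (hp : p.Prime) {t : G} : PiE {p} t ↔ ∃ k, orderOf t = p ^ k :=
  ⟨fun h => h.exists_pow (orderOf_pos t).ne', fun ⟨k, e⟩ => by
    change PiN {p} (orderOf t); rw [e]; exact PiN.prime_pow hp k⟩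

omit [Finite G] in
theorem pe_of_pow {p k : ℕ} (hp : p.Prime) {t : G} (h : t ^ p ^ k = 1) : PiE {p} t :=
  (PiN.prime_pow hp k).dvd (orderOf_dvd_of_pow_eq_one h)

omit [Finite G] in
theorem pe2_of_sq {t : G} (h : t * t = 1) : PiE {2} t :=
  pe_of_pow (k := 1) Nat.prime_two (by simpa [pow_two] using h)

omit [Finite G] in
theorem pe3_of_ord {x : G} (h : orderOf x = 3) : PiE {3} x := by
  change PiN {3} (orderOf x); rw [h]; exact (piN_prime Nat.prime_three).2 rfl

omit [Finite G] in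
theorem cube_of_ord {x : G} (h : orderOf x = 3) : x ^ 3 = 1 := by rw [← h]; exact pow_orderOf_eq_one x

omit [Finite G] in
theorem cube' {x : G} (h : orderOf x = 3) : x * x * x = 1 := by
  have := cube_of_ord h; rwa [pow_succ, pow_two] at this

omit [Finite G] in
theorem inv_of_ord3 {x : G} (h : orderOf x = 3) : x⁻¹ = x * x :=
  inv_eq_of_mul_eq_one_left (cube' h)

omit [Finite G] in
theorem ne_one_of_ord3 {x : G} (h : orderOf x = 3) : x ≠ 1 := by
  rintro rfl; simp at h

/-- an element whose square lies in a 2-group is a 2-element -/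
theorem pe2_of_sq_mem {R : Subgroup G} (hR : PG 2 R) {t : G} (h : t * t ∈ R) : PiE {2} t := by
  obtain ⟨k, e⟩ := (pe_iff Nat.prime_two).1 (hR.elt h)
  refine pe_of_pow (k := k + 1) Nat.prime_two ?_
  rw [pow_succ', pow_mul, pow_two, ← e, pow_orderOf_eq_one]

omit [Finite G] in
theorem cop23 {R : Subgroup G} (hR : PG 2 R) {x : G} (hx : orderOf x = 3) :
    (#R).Coprime #(zpowers x) := by
  rw [Nat.card_zpowers, hx]
  exact (hR.sing_ne (by decide : 2 ≠ 3)).coprime_prime Nat.prime_three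

omit [Finite G] in
theorem not_mem_of_ord3 {R : Subgroup G} (hR : PG 2 R) {x : G} (hx : orderOf x = 3) : x ∉ R :=
  fun h => absurd ((hR.elt h).eq_of_dvd Nat.prime_three (by rw [hx])) (by decide)

omit [Finite G] in
theorem P57.prime {y : G} (h : P57 y) : (orderOf y).Prime := by
  rcases h with h | h <;> rw [h] <;> decide

omit [Finite G] in
theorem P57.conj {y : G} (h : P57 y) (g : G) : P57 (g * y * g⁻¹) := by
  unfold P57; rw [orderOf_conj']; exact h

omit [Finite G] in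
theorem P57.ne_one {y : G} (h : P57 y) : y ≠ 1 := by
  rintro rfl; rcases h with h | h <;> simp at h

omit [Finite G] in
theorem P57.not_mem {R : Subgroup G} (hR : PG 2 R) {y : G} (h : P57 y) : y ∉ R := fun hy => by
  have := (hR.elt hy).eq_of_dvd h.prime dvd_rfl
  rcases h with h | h <;> omega

omit [Finite G] in
theorem P57.cop {R : Subgroup G} (hR : PG 2 R) {y : G} (h : P57 y) : (#R).Coprime #(zpowers y) := by
  rw [Nat.card_zpowers]
  refine (hR.sing_ne (q := orderOf y) ?_).coprime_prime h.prime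
  rcases h with h | h <;> omega

omit [Finite G] in
/-- coprime powers -/
theorem mem_of_pow_cop {H : Subgroup G} {x : G} {m : ℕ} (h : x ^ m ∈ H) (hc : m.Coprime (orderOf x)) :
    x ∈ H :=
  H28.mem_of_pow_mem_of_pow_mem hc h (by rw [pow_orderOf_eq_one]; exact one_mem H)

theorem mem_of_cube {R : Subgroup G} {t : G} (ht : PiE {2} t) (h : t ^ 3 ∈ R) : t ∈ R := by
  obtain ⟨k, e⟩ := (pe_iff Nat.prime_two).1 ht
  exact mem_of_pow_cop h (by rw [e]; exact Nat.Coprime.pow_right _ (by decide))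

omit [Finite G] in
theorem mem_of_sq {R : Subgroup G} {x : G} (hx : orderOf x = 3) (h : x * x ∈ R) : x ∈ R :=
  mem_of_pow_cop (m := 2) (by rwa [pow_two]) (by rw [hx]; decide)

theorem e2 (h : O8 G) {x t : G} (hx : orderOf x = 3) (ht : PiE {2} t) (hc : t * x = x * t) :
    t * t = 1 := by
  obtain ⟨k, e⟩ := (pe_iff Nat.prime_two).1 ht
  have h1 := (show Commute t x from hc).orderOf_mul_eq_mul_orderOf_of_coprime
    (by rw [e, hx]; exact Nat.Coprime.pow_left _ (by decide))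
  have h2 := h (t * x)
  rw [h1, hx, e] at h2
  have hk : k ≤ 1 := by
    by_contra hk
    have : 2 ^ 2 ≤ 2 ^ k := Nat.pow_le_pow_right (by decide) (by omega)
    omega
  rw [← pow_two, ← orderOf_dvd_iff_pow_eq_one, e]
  interval_cases k <;> decide

theorem e3 (h : O8 G) {g : G} (hg : PiE {3} g) : g ^ 3 = 1 := by
  obtain ⟨k, e⟩ := (pe_iff Nat.prime_three).1 hg
  have h2 := h g
  rw [e] at h2
  have hk : k ≤ 1 := by
    by_contra hk
    have : 3 ^ 2 ≤ 3 ^ k := Nat.pow_le_pow_right (by decide) (by omega)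
    omega
  rw [← orderOf_dvd_iff_pow_eq_one, e]
  interval_cases k <;> decide

theorem fp (h : O8 G) {y c : G} (hy : P57 y) (hc : c * y = y * c) (hd : ¬ orderOf y ∣ orderOf c) :
    c = 1 := by
  have h1 := (show Commute c y from hc).orderOf_mul_eq_mul_orderOf_of_coprime
    ((Nat.Coprime.symm ((Nat.Prime.coprime_iff_not_dvd hy.prime).2 hd)))
  have h2 := h (c * y)
  rw [h1] at h2
  have h3 := orderOf_pos c
  rw [← orderOf_eq_one_iff]
  rcases hy with hy | hy <;> rw [hy] at h2 <;> omega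

theorem fp_pe2 (h : O8 G) {y c : G} (hy : P57 y) (hc : c * y = y * c) (h2 : PiE {2} c) : c = 1 :=
  fp h hy hc fun hd => by
    have := h2.eq_of_dvd hy.prime hd
    rcases hy with hy | hy <;> omega

theorem fp2 (h : O8 G) {R : Subgroup G} (hR : PG 2 R) {y : G} (hy : P57 y) : R ⊓ C[y] = ⊥ :=
  eq_bot_iff.2 fun _ hc => mem_bot.2 (fp_pe2 h hy (mem_cent1.1 hc.2) (hR.elt hc.1))

theorem l3 (h : O8 G) {R : Subgroup G} (hR : PG 2 R) {a : G} (h3 : a ^ 3 ∈ R) (hn : a ∉ R) :
    orderOf (a ^ 4) = 3 := by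
  obtain ⟨k, e⟩ := (pe_iff Nat.prime_two).1 (hR.elt h3)
  have h8 := h a
  have h0 := orderOf_pos a
  have hd : 3 ∣ orderOf a := by
    by_contra hd
    exact hn (mem_of_pow_cop h3 ((Nat.Prime.coprime_iff_not_dvd Nat.prime_three).2 hd))
  rw [orderOf_pow' _ (by decide)]
  have : orderOf a = 3 ∨ orderOf a = 6 := by omega
  rcases this with h | h <;> rw [h] <;> decide

omit [Finite G] in
theorem l3_eq (a : G) : a ^ 4 = a ^ 3 * a := pow_succ a 3

omit [Finite G] in
theorem O8.map {X : Type*} [Group X] (h : O8 G) [Finite G] (f : G →* X) (hf : Function.Surjective f) :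
    O8 X := fun x => by
  obtain ⟨g, rfl⟩ := hf x
  exact (Nat.le_of_dvd (orderOf_pos g) (orderOf_map_dvd f g)).trans (h g)

omit [Finite G] in
theorem O8.sub (h : O8 G) (H : Subgroup G) : O8 H := fun x => by
  rw [← Subgroup.orderOf_coe]; exact h x

theorem O8.quo (h : O8 G) (K : Subgroup G) : O8 (Quo K) := (h.sub N(K)).map (qmk K) (qmk_surj K)

omit [Finite G] in
theorem abelem_of_sq {A : Subgroup G} (h : ∀ a ∈ A, a * a = 1) : Abelem 2 A := by
  refine ⟨comm_iff_le_cent.2 fun a ha => mem_cent.2 fun b hb => ?_, fun a ha => by rw [pow_two]; exact h a ha⟩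
  have h1 := h _ (mul_mem ha hb)
  calc b * a = (a * a) * (b * a) * (b * b) := by rw [h a ha, h b hb]; simp
    _ = a * (a * b * (a * b)) * b := by group
    _ = a * b := by rw [h1]; simp

omit [Finite G] in
theorem sq_of_abelem {A : Subgroup G} (h : Abelem 2 A) {a : G} (ha : a ∈ A) : a * a = 1 := by
  rw [← pow_two]; exact h.2 a ha

theorem ab_cent3 (h : O8 G) {x : G} (hx : orderOf x = 3) {A : Subgroup G} (hA : PG 2 A)
    (hc : A ≤ C[x]) : Abelem 2 A :=
  abelem_of_sq fun _ ha => e2 h hx (hA.elt ha) (mem_cent1.1 (hc ha))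

/-- two elements of a 2-group centralizing an element of order 3 commute -/
theorem comm3 (h : O8 G) {x : G} (hx : orderOf x = 3) {R : Subgroup G} (hR : PG 2 R) {a b : G}
    (ha : a ∈ R) (hb : b ∈ R) (ha' : a ∈ C[x]) (hb' : b ∈ C[x]) : a * b = b * a :=
  mul_comm_of_comm (ab_cent3 h hx (hR.infl C[x]) inf_le_right).1 ⟨ha, ha'⟩ ⟨hb, hb'⟩

omit [Finite G] in
theorem pg_sup_zp {R : Subgroup G} (hR : PG 2 R) {t : G} (ht : PiE {2} t) (hn : t ∈ N(R)) :
    PG 2 (R ⊔ zpowers t) :=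
  hR.sup (piG_zpowers.2 ht) (zpowers_le.2 hn)

/-- lift an element centralizing `g` modulo `R` into the centralizer -/
theorem lift_cent {R : Subgroup G} {g t : G} (hg : g ∈ N(R)) (hc : (#R).Coprime (orderOf g))
    (h : t * g * t⁻¹ * g⁻¹ ∈ R) (ht : t ∈ N(R)) : ∃ r ∈ R, r * t ∈ C[g] := by
  have key : ∀ n : ℕ, g ^ n * t * (g ^ n)⁻¹ * t⁻¹ ∈ R := by
    intro n
    induction n with
    | zero => simp
    | succ n ih =>
      have h1 : g * t * g⁻¹ * t⁻¹ ∈ R := by
        have := inv_mem h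
        rwa [show (t * g * t⁻¹ * g⁻¹)⁻¹ = g * t * g⁻¹ * t⁻¹ by group] at this
      have := mul_mem (conj_mem_of_norm hg ih) h1
      rwa [show g * (g ^ n * t * (g ^ n)⁻¹ * t⁻¹) * g⁻¹ * (g * t * g⁻¹ * t⁻¹) =
        g ^ (n + 1) * t * (g ^ (n + 1))⁻¹ * t⁻¹ by rw [pow_succ']; group] at this
  obtain ⟨n, hn, e⟩ := exists_mul_mem_cent (A := zpowers g) (H := R) (k := t) (zpowers_le.2 hg)
    (by rwa [Nat.card_zpowers]) (Or.inl (sol_zpowers g)) (fun a ha => by
      obtain ⟨m, rfl⟩ := (mem_powers_iff_mem_zpowers.2 ha : a ∈ Submonoid.powers g)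
      exact key m)
  exact ⟨n, hn, by rwa [cent_zpowers] at e⟩

theorem E9p.el {a b : G} (h : E9p a b) : El 3 2 (zpowers a ⊔ zpowers b) ⊤ :=
  El.sup2 (el1_zpowers Nat.prime_three (mem_top a) h.oa) (el1_zpowers Nat.prime_three (mem_top b) h.ob)
    (by rw [cent_zpowers]; exact zpowers_le.2 (mem_cent1.2 h.comm))
    (fun e => h.ne (e ▸ mem_zpowers b))

omit [Finite G] in
theorem mem_zp3 {x g : G} (hx : orderOf x = 3) (hg : g ∈ zpowers x) : g = 1 ∨ g = x ∨ g = x⁻¹ := by
  obtain ⟨k, rfl⟩ := mem_zpowers_iff.1 hg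
  rw [← zpow_mod_orderOf, hx]
  have : k % ((3 : ℕ) : ℤ) = 0 ∨ k % ((3 : ℕ) : ℤ) = 1 ∨ k % ((3 : ℕ) : ℤ) = 2 := by
    push_cast; omega
  rcases this with e | e | e <;> rw [e]
  · simp
  · simp
  · right; right; rw [inv_of_ord3 hx, zpow_two]

omit [Finite G] in
theorem cent1_inv (x : G) : C[x⁻¹] = C[x] := by
  rw [← cent_zpowers, ← cent_zpowers, zpowers_inv]

theorem gen9 {R L : Subgroup G} {a b : G} (hR : PG 2 R) (h : E9p a b) (ha : a ∈ N(R)) (hb : b ∈ N(R))
    (h1 : R ⊓ C[a] ≤ L) (h2 : R ⊓ C[b] ≤ L) (h3 : R ⊓ C[a * b] ≤ L) (h4 : R ⊓ C[a * b⁻¹] ≤ L) :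
    R ≤ L := by
  have hE := h.el
  refine le_of_cent1_le (A := zpowers a ⊔ zpowers b) hE.comm hE.not_cyc
    (sup_le (zpowers_le.2 ha) (zpowers_le.2 hb))
    ((hR.sing_ne (by decide : 2 ≠ 3)).coprime' hE.pg) ?_
  intro x hx h1x
  have hc : zpowers b ≤ N(zpowers a) := norms_of_cents (by
    rw [cent_zpowers]; exact zpowers_le.2 (mem_cent1.2 h.comm.symm))
  obtain ⟨u, hu, v, hv, rfl⟩ := (mem_sup_of_norm hc).1 hx
  have hab : Commute a b := h.comm
  rcases mem_zp3 h.oa hu with rfl | rfl | rfl <;> rcases mem_zp3 h.ob hv with rfl | rfl | rfl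
  · simp at h1x
  · simpa using h2
  · simpa [cent1_inv] using h2
  · simpa using h1
  · exact h3
  · exact h4
  · simpa [cent1_inv] using h1
  · rw [← cent1_inv, show (a⁻¹ * v)⁻¹ = a * v⁻¹ by rw [mul_inv_rev, inv_inv, hab.inv_right.eq]]; exact h4
  · rw [← cent1_inv, show (a⁻¹ * b⁻¹)⁻¹ = a * b by rw [mul_inv_rev, inv_inv, inv_inv, hab.eq]]; exact h3

theorem fix_mod {p : ℕ} (hp : p.Prime) {U : Subgroup G} {f : G} (hf : orderOf f = p) (h : f ∈ N(U)) :
    #U ≡ #(U ⊓ C[f]) [MOD p] := by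
  haveI : Fact p.Prime := ⟨hp⟩
  letI : MulAction (zpowers f) U :=
    { smul := fun g u => ⟨g * u * g⁻¹, conj_mem_of_norm (zpowers_le.2 h g.2) u.2⟩
      one_smul := fun u => Subtype.ext (by change ((1 : zpowers f) : G) * u * ((1 : zpowers f) : G)⁻¹ = u; simp)
      mul_smul := fun a b u => Subtype.ext (by
        change ((a * b : zpowers f) : G) * u * ((a * b : zpowers f) : G)⁻¹ =
          (a : G) * ((b : G) * u * (b : G)⁻¹) * (a : G)⁻¹
        simp [mul_assoc]) }
  have hs : ∀ (g : zpowers f) (u : U), ((g • u : U) : G) = g * u * (g : G)⁻¹ := fun _ _ => rfl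
  have h1 := (IsPGroup.of_card (G := zpowers f) (n := 1)
    (by rw [Nat.card_zpowers, hf, pow_one])).card_modEq_card_fixedPoints U
  rwa [show Nat.card (MulAction.fixedPoints (zpowers f) U) = #(U ⊓ C[f]) from Nat.card_congr
    { toFun := fun x => ⟨x.1, x.1.2, mem_cent1.2 (by
        have := congrArg Subtype.val (x.2 ⟨f, mem_zpowers f⟩)
        rw [hs] at this
        exact (mul_inv_eq_iff_eq_mul.1 this).symm)⟩
      invFun := fun x => ⟨⟨x, x.2.1⟩, fun g => Subtype.ext (by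
        rw [hs]
        have := mem_cent1.1 (zpowers_le.2 (mem_cent1_symm.1 x.2.2) g.2)
        exact mul_inv_eq_iff_eq_mul.2 this)⟩
      left_inv := fun _ => rfl
      right_inv := fun _ => rfl }] at h1

theorem card3 {U : Subgroup G} {x : G} (hx : orderOf x = 3) (h : x ∈ N(U)) :
    #U ≡ #(U ⊓ C[x]) [MOD 3] := fix_mod Nat.prime_three hx h

theorem card57' (h : O8 G) {U : Subgroup G} (hU : PG 2 U) {y : G} (hy : P57 y) (hn : y ∈ N(U)) :
    #U % orderOf y = 1 := by
  have := fix_mod hy.prime rfl hn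
  rw [fp2 h hU hy, card_bot] at this
  rw [this, Nat.mod_eq_of_lt hy.prime.one_lt]

theorem ord_qmk {W : Subgroup G} {y : G} (hn : y ∈ N(W)) (hp : (orderOf y).Prime) (hy : y ∉ W) :
    orderOf (qmk W ⟨y, hn⟩) = orderOf y := by
  have h1 : orderOf (qmk W ⟨y, hn⟩) ∣ orderOf y :=
    (orderOf_map_dvd _ _).trans (by rw [← Subgroup.orderOf_coe])
  rcases (Nat.dvd_prime hp).1 h1 with e | e
  · exact absurd (qmk_eq_one.1 (orderOf_eq_one_iff.1 e)) hy
  · exact e

theorem card57 (h : O8 G) {U W : Subgroup G} (hU : PG 2 U) (hW : W ≤ U) (hUW : U ≤ N(W)) {y : G}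
    (hy : P57 y) (hn : y ∈ N(U)) (hn' : y ∈ N(W)) : W.relIndex U % orderOf y = 1 := by
  have e := ord_qmk hn' hy.prime (hy.not_mem (hU.of_le hW))
  have hy' : P57 (qmk W ⟨y, hn'⟩) := by unfold P57; rw [e]; exact hy
  have := card57' (h.quo W) (hU.quo W) hy' (by
    have := quo_norms (K := W) (zpowers_le.2 hn)
    rw [quo_zpowers hn'] at this
    exact this (mem_zpowers _))
  rwa [card_quo hUW, e] at this

/-- a section of a 2-group of order at most 4 normalized by a 5- or 7-element is trivial -/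
theorem le_of_idx4 (h : O8 G) {U W : Subgroup G} (hU : PG 2 U) (hW : W ≤ U) (hUW : U ≤ N(W)) {y : G}
    (hy : P57 y) (hn : y ∈ N(U)) (hn' : y ∈ N(W)) (h4 : W.relIndex U ≤ 4) : U ≤ W := by
  have h1 := card57 h hU hW hUW hy hn hn'
  rw [← relIndex_eq_one]
  rcases hy with e | e <;> rw [e] at h1 <;> omega

theorem eq_bot_of_card4 (h : O8 G) {U : Subgroup G} (hU : PG 2 U) {y : G} (hy : P57 y) (hn : y ∈ N(U))
    (h4 : #U ≤ 4) : U = ⊥ := by
  have h1 := card57' h hU hy hn
  rw [← card_eq_one]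
  rcases hy with e | e <;> rw [e] at h1 <;> omega

theorem sol23 (h : O8 G) {K : Subgroup G} (hK : ∀ y ∈ K, ¬ P57 y) : Sol K := by
  obtain ⟨a, b, e, h1, h2⟩ := exists_pi_factor {2} (card_ne_zero K)
  obtain ⟨i, rfl⟩ := h1.exists_pow (by rintro rfl; exact card_ne_zero K (by simpa using e))
  have h3 : PiN {3} b := by
    intro p hp hd
    have hd' : p ∣ #K := e ▸ Dvd.dvd.mul_left hd _
    obtain ⟨y, hy, ho⟩ := exists_orderOf_eq_prime hp hd'
    have h5 := hK y hy
    have h8 := h y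
    have h2' : p ≠ 2 := h2 p hp hd
    unfold P57 at h5
    rw [ho] at h5 h8
    have := hp.two_le
    change p = 3
    interval_cases p <;> first | rfl | omega | exact absurd hp (by decide)
  obtain ⟨j, rfl⟩ := h3.exists_pow (by rintro rfl; exact card_ne_zero K (by simpa using e))
  exact Cfsg.Agent.S0144.result 2 3 i j Nat.prime_two Nat.prime_three e

end H24.OA
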