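/-
S3432, amalgam part: basic kit, part 2 (characteristic 2, parabolics, offenders).
-/
import Cfsg.Agent.H24.OA1

set_option autoImplicit false
set_option linter.style.haveILetI false

namespace H24.OA
open Cfsg Subgroup H19
open scoped commutatorElement

universe u

variable {G : Type*} [Group G] [Finite G]

omit [Finite G] in
theorem mem_Om {T : Subgroup G} {x : G} : x ∈ Om T ↔ x ∈ T ∧ x ∈ C(T) ∧ x ^ 2 = 1 :=
  H28.mem_omegaOneCenter (p := 2)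

omit [Finite G] in
theorem Om_le (T : Subgroup G) : Om T ≤ T := fun _ h => (mem_Om.1 h).1
omit [Finite G] in
theorem Om_le_cent (T : Subgroup G) : Om T ≤ C(T) := fun _ h => (mem_Om.1 h).2.1
omit [Finite G] in
theorem le_cent_Om (T : Subgroup G) : T ≤ C(Om T) := cents_symm (Om_le_cent T)
theorem Om_el (T : Subgroup G) : Abelem 2 (Om T) := abelem_Ohm1_center 2 T
theorem norm_Om (T : Subgroup G) : N(T) ≤ N(Om T) := norm_le_norm_Ohm1_center 2 T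
theorem Om_pg (T : Subgroup G) : PG 2 (Om T) := abelem_pg Nat.prime_two (Om_el T)
theorem Om_ne {T : Subgroup G} (h : PG 2 T) (h1 : T ≠ ⊥) : Om T ≠ ⊥ := h.Ohm1_center_ne_bot h1
theorem cj_Om (g : G) (T : Subgroup G) : cj g (Om T) = Om (cj g T) := by
  rw [cj_Ohm1, cj_inf, cj_cent]
omit [Finite G] in
theorem le_Om {A T : Subgroup G} (h1 : A ≤ T) (h2 : A ≤ C(T)) (h3 : Abelem 2 A) : A ≤ Om T :=
  fun a ha => mem_Om.2 ⟨h1 ha, h2 ha, h3.2 a ha⟩
theorem Om_self {A : Subgroup G} (h : Abelem 2 A) : Om A = A :=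
  (Om_le A).antisymm (le_Om le_rfl (comm_iff_le_cent.1 h.1) h)
theorem O2_pg (M : Subgroup G) : PG 2 (O2 M) := Oc_pi {2} M
theorem O2_le (M : Subgroup G) : O2 M ≤ M := Oc_le {2} M
theorem O2_norm (M : Subgroup G) : M ≤ N(O2 M) := Oc_norm {2} M
theorem O2_normal (M : Subgroup G) : O2 M ⊴ M := Oc_normal {2} M
theorem O2_eq_inf {K M : Subgroup G} (h : K ⊴ M) : O2 K = O2 M ⊓ K := Oc_eq_inf h
theorem cj_O2 (g : G) (M : Subgroup G) : cj g (O2 M) = O2 (cj g M) := cj_Oc g {2} M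
theorem norm_O2 (M : Subgroup G) : N(M) ≤ N(O2 M) := norm_le_norm_Oc {2} M
theorem pCore2 (M : Subgroup G) : (pCore 2 M).map M.subtype = O2 M := pCore_map_eq Nat.prime_two M
theorem Vm_norm (M : Subgroup G) : M ≤ N(Vm M) := (Oc_norm {2} M).trans (norm_Om _)
omit [Finite G] in
theorem Vm_le (M : Subgroup G) : Vm M ≤ O2 M := Om_le _
omit [Finite G] in
theorem O2_cent (M : Subgroup G) : O2 M ≤ C(Vm M) := le_cent_Om _

/-- the order of an elementary abelian group under an element acting as an involution -/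
theorem card_le_sq {V : Subgroup G} (hV : Abelem 2 V) {t : G} (ht : t ∈ N(V)) (h2 : t * t ∈ C(V)) :
    #V ≤ #(V ⊓ C[t]) ^ 2 := by
  have hc : ∀ a ∈ V, ∀ b ∈ V, a * b = b * a := fun a ha b hb => mul_comm_of_comm hV.1 ha hb
  let f : V →* ↥(V ⊓ C[t]) :=
    { toFun := fun v => ⟨v * (t * v * t⁻¹), mul_mem v.2 (conj_mem_of_norm ht v.2), mem_cent1.2 (by
        have h1 := mem_cent.1 h2 v v.2
        have h3 := hc _ v.2 _ (conj_mem_of_norm ht v.2)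
        calc (v : G) * (t * v * t⁻¹) * t = v * t * v := by group
          _ = t * (t⁻¹ * v * t * v) := by group
          _ = t * ((t * ((t * t)⁻¹ * (v * (t * t))) * t⁻¹) * v) := by group
          _ = t * ((t * v * t⁻¹) * v) := by rw [h1, inv_mul_cancel_left]
          _ = _ := by rw [← h3])⟩
      map_one' := Subtype.ext (by simp)
      map_mul' := fun a b => Subtype.ext (by
        change (a * b : G) * (t * (a * b) * t⁻¹) = a * (t * a * t⁻¹) * (b * (t * b * t⁻¹))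
        have h3 := hc _ b.2 _ (conj_mem_of_norm ht a.2)
        calc (a * b : G) * (t * (a * b) * t⁻¹) = a * (b * (t * a * t⁻¹)) * (t * b * t⁻¹) := by group
          _ = _ := by rw [h3]; group) }
  have hk : #f.ker ≤ #(V ⊓ C[t]) := by
    refine Nat.card_le_card_of_injective (fun v => ⟨v.1.1, v.1.2, mem_cent1.2 ?_⟩)
      (fun a b e => Subtype.ext (Subtype.ext (congrArg (fun z : ↥(V ⊓ C[t]) => (z : G)) e)))
    have h1 : (v.1.1 : G) * (t * v.1.1 * t⁻¹) = 1 := congrArg Subtype.val (MonoidHom.mem_ker.1 v.2)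
    have h3 := sq_of_abelem hV v.1.2
    have h4 : t * v.1.1 * t⁻¹ = v.1.1 := mul_left_cancel (h1.trans h3.symm)
    exact (mul_inv_eq_iff_eq_mul.1 h4).symm
  have hr : #f.range ≤ #(V ⊓ C[t]) := Nat.card_le_card_of_injective _ f.range.subtype_injective
  have e : Nat.card V = #f.ker * #f.range := by
    rw [← Subgroup.card_mul_index f.ker, Subgroup.index_ker]
  rw [e, pow_two]
  exact Nat.mul_le_mul hk hr

theorem card_mul_le_of_disj {V A B : Subgroup G} (hA : A ≤ V) (hB : B ≤ V) (hn : B ≤ N(A))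
    (h : A ⊓ B = ⊥) : #A * #B ≤ #V := by
  rw [← card_sup_of_disjoint hn h]; exact card_le (sup_le hA hB)

/-- an involution inverting a fixed-point-free element acts freely -/
theorem sq {V : Subgroup G} (hV : Abelem 2 V) {t g : G} (ht : t ∈ N(V)) (hg : g ∈ N(V))
    (h2 : t * t ∈ C(V)) (hi : t * g * t⁻¹ * g ∈ C(V)) (ho : Odd (orderOf g)) (hf : V ⊓ C[g] = ⊥) :
    #V = #(V ⊓ C[t]) ^ 2 := by
  refine (card_le_sq hV ht h2).antisymm ?_
  have e : cj g (V ⊓ C[t]) = V ⊓ C[g * t * g⁻¹] := by rw [cj_inf, cj_of_mem_norm hg, cj_cent1]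
  rw [pow_two]
  nth_rewrite 2 [← card_cj g (V ⊓ C[t])]
  rw [e]
  refine card_mul_le_of_disj inf_le_left inf_le_left (norms_of_comm hV.1 inf_le_left inf_le_left) ?_
  refine eq_bot_iff.2 fun v hv => hf ▸ ⟨hv.1.1, ?_⟩
  have h1 : t ∈ C[v] := mem_cent1_symm.1 hv.1.2
  have h3 : g * t * g⁻¹ ∈ C[v] := mem_cent1_symm.1 hv.2.2
  have h4 := cent_le_cent1 hv.1.1 hi
  have h6 : g ^ 2 ∈ C[v] := by
    have h9 := mul_mem (mul_mem h3 (mul_mem (inv_mem h1) h4)) (one_mem _)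
    rwa [show g * t * g⁻¹ * (t⁻¹ * (t * g * t⁻¹ * g)) * 1 = g ^ 2 by rw [pow_two]; group] at h9
  exact mem_cent1_symm.1 (mem_of_pow_cop h6 ((Nat.coprime_two_left).2 ho))

/-! ### characteristic 2 -/

theorem Ch.over {K L : Subgroup G} (h : Ch K) (h1 : O2 K ≤ L) (h2 : L ≤ K) : Ch L := fun _ hx =>
  Oc_le_Oc_of_le h2 h1 (h ⟨h2 hx.1, cent_mono (Oc_le_Oc_of_le h2 h1) hx.2⟩)

theorem Ch.syl {K T L : Subgroup G} (h : Ch K) (hT : Syl 2 T K) (h1 : T ≤ L) (h2 : L ≤ K) : Ch L :=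
  h.over ((Oc_le_hall hT).trans h1) h2

theorem Ch.normal {K L : Subgroup G} (h : Ch K) (hL : L ⊴ K) : Ch L := by
  have hn : L ⊓ C(O2 L) ⊴ L := (Oc_normal {2} L).inf_cent
  refine le_Oc hn (PiN.of_elt fun x hx p hp hd => ?_)
  by_contra hp2
  obtain ⟨y, hy, ho⟩ := exists_orderOf_eq_prime (H := zpowers x) hp (by rwa [Nat.card_zpowers])
  have hy' : y ∈ L ⊓ C(O2 L) := zpowers_le.2 hx hy
  have hc : (#(O2 L)).Coprime #(zpowers y) := by
    rw [Nat.card_zpowers, ho]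
    exact ((O2_pg L).sing_ne (fun e => hp2 e.symm)).coprime_prime hp
  have h1 : zpowers y ≤ C(O2 K) := cents_of_stable hc (zpowers_le.2 hy'.2) (by
    rw [O2_eq_inf hL]
    exact le_inf ((Oc_normal {2} K).commg_le ((zpowers_le.2 hy'.1).trans hL.le))
      ((commutator_mono le_rfl (zpowers_le.2 hy'.1)).trans (hL.commg_le' (Oc_le _ _))))
  have h3 := (O2_pg K).elt (h ⟨hL.le hy'.1, h1 (mem_zpowers y)⟩)
  exact hp2 (h3.eq_of_dvd hp (by rw [ho]))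

theorem C2.cent (h : C2 G) {U : Subgroup G} (hU : PG 2 U) (h1 : U ≠ ⊥) : Ch C(U) :=
  (h U hU h1).normal (cent_normal_norm U)

theorem c2_of (h : IsCharacteristicTwoType G) : C2 G := fun U hU h1 x hx => by
  have h2 := h.2 U hU.isPGroup h1
  rw [← pCore2] at hx ⊢
  refine ⟨⟨x, hx.1⟩, h2 (mem_centralizer_iff.2 fun y hy => Subtype.ext ?_), rfl⟩
  exact mem_cent.1 hx.2 y ⟨y, hy, rfl⟩

omit [Finite G] in
theorem Ch.not_cent {K : Subgroup G} (h : Ch K) [Finite G] {x : G} (hx : x ∈ K) (ho : orderOf x = 3) :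
    x ∉ C(O2 K) := fun hc => not_mem_of_ord3 (O2_pg K) ho (h ⟨hx, hc⟩)

theorem Ch.ne {K : Subgroup G} (h : Ch K) (h1 : K ≠ ⊥) : O2 K ≠ ⊥ := fun e =>
  h1 (eq_bot_iff.2 fun x hx => e ▸ h ⟨hx, by rw [e, cent_bot]; trivial⟩)

theorem O2_ne_of_norm {K U : Subgroup G} (hU : PG 2 U) (h1 : U ≠ ⊥) (h : U ⊴ K) : O2 K ≠ ⊥ :=
  ne_bot_mono (le_Oc h hU) h1

theorem exists_mx {K : Subgroup G} (h : O2 K ≠ ⊥) : ∃ M, Mx M ∧ K ≤ M := by
  obtain ⟨M, hM, hm⟩ := exists_maximal_ge_of_wellFoundedGT (fun L : Subgroup G => O2 L ≠ ⊥) K h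
  exact ⟨M, ⟨hm.1, fun L h1 h2 => (hm.2 h2 h1).antisymm h1⟩, hM⟩

theorem Mx.norm {M U : Subgroup G} (h : Mx M) (hU : PG 2 U) (h1 : U ≠ ⊥) (hn : M ≤ N(U)) : N(U) = M :=
  h.2 _ hn (O2_ne_of_norm hU h1 (normalIn_norm U))

theorem Mx.normQ {M : Subgroup G} (h : Mx M) : N(O2 M) = M := h.norm (O2_pg M) h.1 (Oc_norm _ _)

theorem Mx.normV {M : Subgroup G} (h : Mx M) : N(Vm M) = M :=
  h.norm (Om_pg _) (Om_ne (O2_pg M) h.1) (Vm_norm M)

theorem Mx.ch {M : Subgroup G} (h : Mx M) (h2 : C2 G) : Ch M := h.normQ ▸ h2 _ (O2_pg M) h.1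

theorem cz {M T : Subgroup G} (h : Ch M) (h1 : O2 M ≤ T) (h2 : T ≤ M) : Om T = Vm M ⊓ C(T) := by
  refine le_antisymm (le_inf (le_Om (fun z hz => h ⟨h2 (Om_le T hz), cent_mono h1 (Om_le_cent T hz)⟩)
    ((Om_le_cent T).trans (cent_mono h1)) (Om_el T)) (Om_le_cent T))
    (le_Om (inf_le_left.trans ((Vm_le M).trans h1)) inf_le_right (abelem_mono (Om_el _) inf_le_left))

theorem Bs.qt {M T : Subgroup G} (h : Bs M T) : O2 M ≤ T := Oc_le_hall h.syl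
theorem Bs.tm {M T : Subgroup G} (h : Bs M T) : T ≤ M := h.syl.le
theorem Bs.pg {M T : Subgroup G} (h : Bs M T) : PG 2 T := h.syl.pi
theorem Bs.vt {M T : Subgroup G} (h : Bs M T) : Vm M ≤ T := (Vm_le M).trans h.qt
theorem Bs.vne {M T : Subgroup G} (h : Bs M T) : Vm M ≠ ⊥ := Om_ne (O2_pg M) h.ne
theorem Bs.tne {M T : Subgroup G} (h : Bs M T) : T ≠ ⊥ := ne_bot_mono h.qt h.ne
theorem Bs.zne {M T : Subgroup G} (h : Bs M T) : Om T ≠ ⊥ := Om_ne h.pg h.tne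
theorem Bs.cz {M T : Subgroup G} (h : Bs M T) : Om T = Vm M ⊓ C(T) := OA.cz h.ch h.qt h.tm
theorem Bs.zv {M T : Subgroup G} (h : Bs M T) : Om T ≤ Vm M := h.cz ▸ inf_le_left

/-- a nontrivial normal 2-subgroup is centralized only by `O₂(M)` -/
theorem Bs.cu {M T U : Subgroup G} (o : O8 G) (h : Bs M T) (hU : PG 2 U) (h1 : U ≠ ⊥) (hn : M ≤ N(U)) :
    M ⊓ C(U) ≤ O2 M := by
  rcases h.nm _ (inf_cent_normal hn) with h2 | ⟨y, hy, h5⟩
  · exact h2
  · exact absurd (by rw [← fp2 o hU h5, inf_eq_left.2 (le_cent1_iff.2 hy.2)]) h1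

theorem Bs.cv {M T : Subgroup G} (o : O8 G) (h : Bs M T) : M ⊓ C(Vm M) ≤ O2 M :=
  h.cu o (Om_pg _) h.vne (Vm_norm M)

theorem Bs.qv {M T : Subgroup G} (o : O8 G) (h : Bs M T) (h4 : (Vm M).relIndex (O2 M) ≤ 4) :
    Abelem 2 (O2 M) := by
  obtain ⟨y, hy, h5⟩ := h.y
  exact abelem_mono (Om_el _) (le_of_idx4 o (O2_pg M) (Vm_le M) (norms_of_cents (O2_cent M)) h5
    (Oc_norm _ _ hy) (Vm_norm M hy) h4)

/-- no nontrivial normal 2-subgroup of order at most 4 -/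
theorem Bs.no4 {M T U : Subgroup G} (o : O8 G) (h : Bs M T) (hU : PG 2 U) (hn : M ≤ N(U)) (h4 : #U ≤ 4) :
    U = ⊥ := by
  obtain ⟨y, hy, h5⟩ := h.y
  exact eq_bot_of_card4 o hU h5 (hn hy) h4

theorem Bs.not_le {M T : Subgroup G} (h : Bs M T) {K : Subgroup G} (hK : ∀ y ∈ K, ¬ P57 y) : ¬ M ≤ K :=
  fun hle => let ⟨y, hy, h5⟩ := h.y; hK y (hle hy) h5

theorem Bs.cj {M T : Subgroup G} (h : Bs M T) {T' : Subgroup G} (hT : Syl 2 T' M) : Bs M T' :=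
  ⟨h.ch, h.ne, h.nm, h.r4, hT, h.y⟩

/-! ### `Dd` -/

theorem Dd.two {K D : Subgroup G} (h : Dd K D) {c : G} (hc : c ∈ D) (h2 : PiE {2} c) : c ∈ O2 K :=
  mem_of_cube h2 ((h.mem c (h.nl.le hc)).1 hc)

omit [Finite G] in
theorem Dd.three {K D : Subgroup G} (h : Dd K D) {x : G} (hx : x ∈ K) (ho : orderOf x = 3) : x ∈ D :=
  (h.mem x hx).2 (by rw [cube_of_ord ho]; exact one_mem _)

theorem Dd.cm {K D F : Subgroup G} (h : Dd K D) (hF : PG 2 F) (hFK : F ≤ K) {x : G} (hx : x ∈ K)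
    (ho : orderOf x = 3) (hn : x ∈ N(F)) {f : G} (hf : f ∈ F) : x * f * x⁻¹ * f⁻¹ ∈ O2 K := by
  refine h.two ?_ (hF.elt (mul_mem (conj_mem_of_norm hn hf) (inv_mem hf)))
  have h1 := h.three hx ho
  have := mul_mem h1 (h.nl.conj_mem (hFK hf) (inv_mem h1))
  rwa [show x * (f * x⁻¹ * f⁻¹) = x * f * x⁻¹ * f⁻¹ by group] at this

theorem Dd.cm' {K D F : Subgroup G} (h : Dd K D) (hF : PG 2 F) (hFK : F ≤ K) {x : G} (hx : x ∈ K)
    (ho : orderOf x = 3) (hn : x ∈ N(F)) : ⁅F, zpowers x⁆ ≤ O2 K := by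
  have h1 : ⁅F, zpowers x⁆ ≤ F := commg_le_left (zpowers_le.2 hn)
  have h2 : ⁅F, zpowers x⁆ ≤ D :=
    (commutator_mono le_rfl (zpowers_le.2 (h.three hx ho))).trans (h.nl.commg_le' hFK)
  exact fun c hc => h.two (h2 hc) (hF.elt (h1 hc))

/-- a 2-element centralizing `D` modulo `O₂(K)` lies in `O₂(K)` -/
theorem Dd.cen2 {K D : Subgroup G} (h : Dd K D) {t : G} (ht : t ∈ K) (h2 : PiE {2} t)
    (hc : ∀ a ∈ D, t * a * t⁻¹ * a⁻¹ ∈ O2 K) : t ∈ O2 K := h.two (h.cen t ht hc) h2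

theorem Dd.inf {K D T : Subgroup G} (h : Dd K D) (hT : PG 2 T) : D ⊓ T ≤ O2 K :=
  fun _ hc => h.two hc.1 (hT.elt hc.2)

/-- a Sylow 3-subgroup `P` of `D`: every element of `D` has a representative in `P` -/
theorem Dd.rep {K D P : Subgroup G} (h : Dd K D) (hP : Syl 3 P D) {a : G} (ha : a ∈ D) :
    ∃ r ∈ O2 K, ∃ p ∈ P, a = r * p := by
  have hn : D ≤ N(O2 K) := h.nl.le.trans (Oc_norm _ _)
  have h3 : PG 3 (quo (O2 K) D) := pg_of_pow Nat.prime_three fun x hx => by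
    obtain ⟨y, hy, rfl⟩ := mem_im.1 hx
    rw [← map_pow]; exact qmk_eq_one.2 ((h.mem y (h.nl.le hy)).1 hy)
  have := hP.sup_eq h.le ((piG_quo_iff hn).1 h3)
  exact (mem_sup_of_norm (hP.le.trans hn)).1 (this ▸ ha)

end H24.OA
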