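import Cfsg.Agent.H24.BinTet

/-! Regular subgroups of `GL(2,p)`. -/

set_option autoImplicit false

namespace H24
open Subgroup Matrix

variable {p : ℕ} [hp : Fact p.Prime]

theorem pow_char_eq_one_of_fix {M : Matrix (Fin 2) (Fin 2) (ZMod p)} (h : M.det = 1)
    {v : Fin 2 → ZMod p} (hv : v ≠ 0) (h1 : M *ᵥ v = v) : M ^ p = 1 := by
  have h2 : (M - 1).det = 0 := exists_mulVec_eq_zero_iff.1 ⟨v, hv, by rw [sub_mulVec, h1]; simp⟩
  have h3 : (M - 1) ^ 2 = 0 := by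
    rw [det_fin_two] at h h2
    simp only [Matrix.sub_apply, one_apply_eq, ne_eq, zero_ne_one, not_false_eq_true, one_apply_ne,
      one_ne_zero, sub_zero] at h2
    ext i j
    fin_cases i <;> fin_cases j <;> simp [pow_two, mul_apply, Fin.sum_univ_two]
    · linear_combination (M 0 0 - 1) * (h - h2) - h2
    · linear_combination M 0 1 * (h - h2)
    · linear_combination M 1 0 * (h - h2)
    · linear_combination (M 1 1 - 1) * (h - h2) - h2
  rw [← add_sub_cancel 1 M, add_pow_char_of_commute p (Commute.one_left _), one_pow,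
    pow_eq_zero_of_le hp.out.two_le h3, add_zero]

theorem eq_one_of_det {H : Subgroup (GL (Fin 2) (ZMod p))} (hc : Nat.card H = p ^ 2 - 1)
    {g : GL (Fin 2) (ZMod p)} (hg : g ∈ H) (h : GeneralLinearGroup.det g = 1)
    {v : Fin 2 → ZMod p} (hv : v ≠ 0) (h1 : g.1 *ᵥ v = v) : g = 1 := by
  have h2 : g ^ p = 1 := Units.ext (pow_char_eq_one_of_fix (congrArg Units.val h) hv h1)
  have h3 := Nat.dvd_gcd (orderOf_dvd_of_pow_eq_one h2) (hc ▸ H.orderOf_dvd_natCard hg)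
  rwa [Nat.Coprime.gcd_eq_one (((Nat.coprime_self_sub_right (Nat.one_le_pow 2 _ hp.out.pos)).2
    (Nat.coprime_one_right _)).coprime_dvd_left (dvd_pow_self p two_ne_zero)), Nat.dvd_one,
    orderOf_eq_one_iff] at h3

theorem reg_of {H : Subgroup (GL (Fin 2) (ZMod p))} (hc : Nat.card H = p ^ 2 - 1)
    (hf : ∀ g ∈ H, ∀ v : Fin 2 → ZMod p, v ≠ 0 → g.1 *ᵥ v = v → g = 1)
    (v w : Fin 2 → ZMod p) (hv : v ≠ 0) (hw : w ≠ 0) : ∃! g : H, g.1.1 *ᵥ v = w := by
  have key : ∀ (g : GL (Fin 2) (ZMod p)) u, g⁻¹.1 *ᵥ (g.1 *ᵥ u) = u := fun g u => by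
    rw [mulVec_mulVec, Units.inv_mul, one_mulVec]
  let f : H → ({0}ᶜ : Set (Fin 2 → ZMod p)) := fun g => ⟨g.1.1 *ᵥ v, fun h => hv (by
    rw [← key g v, Set.mem_singleton_iff.1 h, mulVec_zero])⟩
  have hi : Function.Injective f := fun g k e => Subtype.ext (inv_mul_eq_one.1
    (hf _ (mul_mem (inv_mem g.2) k.2) v hv (by
      rw [Units.val_mul, ← mulVec_mulVec, ← show g.1.1 *ᵥ v = k.1.1 *ᵥ v from Subtype.ext_iff.1 e,
        key])))
  obtain ⟨g, hg⟩ := ((Nat.bijective_iff_injective_and_card f).2 ⟨hi, by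
    rw [hc, Nat.card_coe_set_eq, Set.ncard_compl]; simp⟩).2 ⟨w, hw⟩
  exact ⟨g, Subtype.ext_iff.1 hg, fun k hk => hi ((Subtype.ext hk).trans hg.symm)⟩

theorem reg_of_det {s : Set (GL (Fin 2) (ZMod p))} (hc : Nat.card (Subgroup.closure s) = p ^ 2 - 1)
    (h : ∀ g ∈ s, g.1.det = 1) (v w : Fin 2 → ZMod p) (hv : v ≠ 0) (hw : w ≠ 0) :
    ∃! g : Subgroup.closure s, g.1.1 *ᵥ v = w :=
  reg_of hc (fun _ hg _ h1 => eq_one_of_det hc hg ((closure_le (GeneralLinearGroup.det).ker).2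
    (fun g hg => Units.ext (h g hg)) hg) h1) v w hv hw

end H24
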