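/-
S5806: a kit for covers of `L₂(r)` in `Sp₆`.
-/
import Cfsg.Agent.H11.SP2
import Cfsg.Agent.H24.O7a
import Cfsg.Agent.H21.D3a

set_option autoImplicit false
set_option linter.unnecessarySeqFocus false
set_option linter.unusedSectionVars false

open Matrix Cfsg Cfsg.Geo H27.Asch Module H6.SP H24.O7
open H11.SP hiding up dg
open H26.O7 (up wy up_val wy_val up_add up_zero up_pow dg_up dg_val wy_inv)
open scoped MatrixGroups
namespace H24.S6
universe u

section
variable {k : Type*} [Field k]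
theorem T_conj {x y : G6 k} (h : IsConj x y) : T x = T y := by
  obtain ⟨c, rfl⟩ := isConj_iff.1 h
  exact (trace_units_conj c x.val).symm
theorem T_inv {x : G6 k} (h : x ∈ S6 k) : T x⁻¹ = T x := by
  have a := mem_J.1 h
  have b : (x⁻¹).val = -J _ k * x.valᵀ * J _ k := Units.inv_eq_of_mul_eq_one_left (by
    rw [Matrix.mul_assoc, Matrix.mul_assoc, ← Matrix.mul_assoc x.valᵀ, a, Matrix.neg_mul, J_squared, neg_neg])
  rw [T, b, trace_mul_cycle, Matrix.mul_neg, J_squared, neg_neg, Matrix.one_mul, trace_transpose, T]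
theorem T_neg (x : G6 k) : T (-x) = -T x := trace_neg _
theorem T_one : T (1 : G6 k) = 6 := by simp [T]
theorem T_pow (p : ℕ) [Fact p.Prime] [CharP k p] (x : G6 k) (n : ℕ) : T (x ^ p ^ n) = T x ^ p ^ n := by
  induction n with
  | zero => simp
  | succ n ih =>
    rw [pow_succ, pow_mul, pow_mul, ← ih]
    generalize x ^ p ^ n = y
    rw [T, T, Units.val_pow_eq_pow_val, trace_eq_neg_charpoly_coeff, trace_eq_neg_charpoly_coeff, H21.D3.charpoly_pow_char,
      Polynomial.coeff_map, ← map_neg, frobenius_def]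

theorem mem_hm {x m : M6 k} : m ∈ hm x x ↔ x * m = m * x := .rfl
theorem cp_conj (c : G6 k) (m : M6 k) : (c.val * m * (c⁻¹).val).charpoly = m.charpoly := by
  rw [coe_units_inv, charpoly_units_conj]
theorem ker_comp_le {V : Type*} [AddCommGroup V] [Module k V] [FiniteDimensional k V] (f g : End k V) :
    finrank k (LinearMap.ker (f * g)) ≤ finrank k (LinearMap.ker f) + finrank k (LinearMap.ker g) := by
  have d := (g.domRestrict (LinearMap.ker (f * g))).finrank_range_add_finrank_ker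
  have := Submodule.finrank_mono (show LinearMap.range (g.domRestrict (LinearMap.ker (f * g))) ≤ LinearMap.ker f by
    rintro _ ⟨⟨v, h⟩, rfl⟩; exact h)
  have := Submodule.finrank_mono (show (LinearMap.ker (g.domRestrict (LinearMap.ker (f * g)))).map (Submodule.subtype _) ≤
    LinearMap.ker g by rintro _ ⟨⟨v, h⟩, k, rfl⟩; exact k)
  rw [Submodule.finrank_map_subtype_eq] at this
  omega
end

/-! ### spectra -/

def ex {n : ℕ} (e : Fin 3 → ZMod n) : I6 → ZMod n := Sum.elim e fun i => -e i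
def cnt {n : ℕ} (e : Fin 3 → ZMod n) : ℕ := (Finset.univ.filter fun ij : I6 × I6 => ex e ij.1 = ex e ij.2).card

section
variable {K : Type*} [Field K] {n : ℕ} [NeZero n] {ψ : AddChar (ZMod n) K} {x B : G6 K} {e : Fin 3 → ZMod n}

theorem ψ_inj (h : ψ.IsPrimitive) : Function.Injective ψ := fun a b e => sub_eq_zero.1 ((h.zmod_char_eq_one_iff n _).1
  (by rw [AddChar.map_sub_eq_div, e, div_self]; exact (ψ.val_isUnit b).ne_zero))

structure Sc (ψ : AddChar (ZMod n) K) (x B : G6 K) (e : Fin 3 → ZMod n) : Prop where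
  pr : ψ.IsPrimitive
  pw : ∀ k : ℕ, (x ^ k).val = B.val * diagonal (fun i => ψ (k * ex e i)) * (B⁻¹).val

theorem spec [IsAlgClosed K] (n : ℕ) [NeZero n] (h0 : (n : K) ≠ 0) (hx : x ∈ S6 K) (xn : x ^ n = 1) :
    ∃ (ψ : AddChar (ZMod n) K) (B : G6 K) (e : Fin 3 → ZMod n), Sc ψ x B e := by
  have : NeZero (n : K) := ⟨h0⟩
  obtain ⟨ζ, hζ⟩ := HasEnoughRootsOfUnity.exists_primitiveRoot K n
  obtain ⟨B, -, hB⟩ := dg' {x} (by simpa) (by simp) (by simpa using ⟨n, h0, xn⟩)
  obtain ⟨d, hd⟩ := hB x rfl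
  have pw : ∀ k : ℕ, (x ^ k).val = B.val * dg d ^ k * (B⁻¹).val := fun k => by
    rw [← hd, ← Units.val_pow_eq_pow_val, ← Units.val_mul, ← Units.val_mul, ← conj_pow]; simp [mul_assoc]
  have dn : ∀ i, (d i : K) ^ n = 1 := fun i => by
    have := pw n
    rw [xn, eq_comm, Units.mul_inv_eq_iff_eq_mul, Units.val_one, one_mul] at this
    replace this := (Units.mul_right_inj B).1 (this.trans (mul_one _).symm)
    rw [dg, diagonal_pow, ← diagonal_one] at this
    exact congrFun (diagonal_injective this) (.inl i)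
  choose e _ he using fun i => hζ.eq_pow_of_pow_eq_one (dn i)
  refine ⟨_, B, fun i => e i, AddChar.zmodChar_primitive_of_primitive_root n hζ, fun k => ?_⟩
  rw [pw, dg, diagonal_pow]
  congr 3
  ext (i | i) <;> simp [ex, ← nsmul_eq_mul, AddChar.map_nsmul_eq_pow, AddChar.map_neg_eq_inv, AddChar.zmodChar_apply', he]

variable (h : Sc ψ x B e)
include h
theorem Sc.T (k : ℕ) : T (x ^ k) = ∑ i, ψ (k * ex e i) := by rw [H6.SP.T, h.pw, trace_units_conj, trace_diagonal]
theorem Sc.one : x.val = B.val * diagonal (fun i => ψ (ex e i)) * (B⁻¹).val := by simpa using h.pw 1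
theorem Sc.T1 : H6.SP.T x = ((Finset.univ.val.map (ex e)).map ψ).sum := by
  rw [Multiset.map_map]; simpa using h.T 1
theorem Sc.cnt_le : cnt e ≤ dh x.val x.val := by
  let L : M6 K →ₗ[K] M6 K := (LinearMap.mulRight K (B⁻¹).val).comp (LinearMap.mulLeft K B.val)
  have lv : ∀ m, L m = B.val * m * (B⁻¹).val := fun _ => rfl
  have hL : LinearMap.ker L = ⊥ := LinearMap.ker_eq_bot'.2 fun m e => by
    rwa [lv, Units.mul_left_eq_zero, Units.mul_right_eq_zero] at e
  let S := Finset.univ.filter fun ij : I6 × I6 => ex e ij.1 = ex e ij.2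
  have li : LinearIndependent K fun s : S => L (stdBasis K I6 I6 s.1) :=
    ((stdBasis K I6 I6).linearIndependent.comp (fun s : S => s.1) Subtype.val_injective).map' L hL
  have m : ∀ s : S, L (stdBasis K I6 I6 s.1) ∈ hm x.val x.val := fun ⟨⟨i, j⟩, hs⟩ => by
    have : diagonal (fun i => ψ (ex e i)) * single i j (1 : K) = single i j 1 * diagonal fun i => ψ (ex e i) := by
      ext a b
      rw [diagonal_mul, mul_diagonal, single_apply]
      split_ifs with c
      · rw [← c.1, ← c.2, show ex e i = ex e j from (Finset.mem_filter.1 hs).2, mul_comm]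
      · simp
    rw [mem_hm, lv, stdBasis_eq_single, h.one]
    simp only [Matrix.mul_assoc, Units.inv_mul_cancel_left]
    rw [← Matrix.mul_assoc (diagonal _), this, Matrix.mul_assoc]
  have := (finrank_span_eq_card li).ge.trans (Submodule.finrank_mono (Submodule.span_le.2 (Set.range_subset_iff.2 m)))
  rwa [Fintype.card_coe] at this
theorem Sc.neg {k : ℕ} (hk : x ^ k = -1) {m : ZMod n} (m2 : m + m = 0) (m0 : m ≠ 0) (i : I6) : k * ex e i = m := by
  have := h.pw k
  rw [hk, eq_comm, Units.mul_inv_eq_iff_eq_mul, Units.val_neg, Units.val_one, neg_one_mul, ← mul_neg_one, Units.mul_right_inj,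
    ← diagonal_one, diagonal_neg] at this
  refine ψ_inj h.pr ((congrFun (diagonal_injective this) i).trans (((mul_self_eq_one_iff.1 ?_).resolve_left fun e =>
    m0 ((h.pr.zmod_char_eq_one_iff n _).1 e)).symm))
  rw [← AddChar.map_add_eq_mul, m2, AddChar.map_zero_eq_one]
theorem Sc.ne (x1 : x ≠ 1) : ∃ i, ex e i ≠ 0 := by
  by_contra! a
  exact x1 (Units.ext (by simpa [a] using h.one))
theorem Sc.cj {m : ℕ} (c : IsConj x (x ^ m)) (i : I6) : ∃ j, ex e j = m * ex e i := by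
  obtain ⟨c, hc⟩ := isConj_iff.1 c
  have := congrArg (fun z : G6 K => Polynomial.eval (ψ (m * ex e i)) z.val.charpoly) hc
  simp only [Units.val_mul] at this
  rw [h.pw, cp_conj, h.one, cp_conj, cp_conj, charpoly_diagonal, charpoly_diagonal,
    Polynomial.eval_prod, Polynomial.eval_prod,
    Finset.prod_eq_zero (f := fun j => Polynomial.eval _ (Polynomial.X - Polynomial.C (ψ (m * ex e j)))) (Finset.mem_univ i)
      (by simp), Finset.prod_eq_zero_iff] at this
  obtain ⟨j, -, hj⟩ := this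
  exact ⟨j, ψ_inj h.pr (by simpa using (sub_eq_zero.1 (by simpa using hj)).symm)⟩
end

section
variable {K : Type*} [Field K] [IsAlgClosed K] {x : G6 K} (hx : x ∈ S6 K)
include hx
theorem dh4 (h2 : (2 : K) ≠ 0) (h : x ^ 2 = -1) : 18 ≤ dh x.val x.val := by
  obtain ⟨ψ, B, e, s⟩ := spec 4 (by push_cast; rw [show (4 : K) = 2 * 2 by norm_num]; exact mul_ne_zero h2 h2) hx
    (by rw [show 4 = 2 * 2 from rfl, pow_mul, h]; simp)
  exact ((by decide : ∀ e : Fin 3 → ZMod 4, (∀ i, (2 : ℕ) * ex e i = 2) → 18 ≤ cnt e) e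
    (s.neg h (by decide) (by decide))).trans s.cnt_le
theorem dh3 (h : x ^ 3 = 1) : 12 ≤ dh x.val x.val := by
  by_cases h3 : ((3 : ℕ) : K) = 0
  · let L : End K (M6 K) := LinearMap.mulLeft K x.val - LinearMap.mulRight K x.val
    have a : L * (L * L) = 0 := LinearMap.ext fun m => by
      have : (L * (L * L)) m = (x.val ^ 3 * m - m * x.val ^ 3) - 3 • (x.val * x.val * m * x.val - x.val * m * x.val * x.val) := by
        simp only [L, End.mul_apply, LinearMap.sub_apply, LinearMap.mulLeft_apply, LinearMap.mulRight_apply]; noncomm_ring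
      rw [this, ← Units.val_pow_eq_pow_val, h, ← Nat.cast_smul_eq_nsmul K, h3]; simp
    have b := ker_comp_le L (L * L)
    have := ker_comp_le L L
    rw [a, LinearMap.ker_zero, finrank_top, finrank_matrix] at b
    have c : dh x.val x.val = finrank K (LinearMap.ker L) :=
      congrArg (fun S : Submodule K (M6 K) => finrank K S) (Submodule.ext fun m => sub_eq_zero.symm)
    simp at b; omega
  obtain ⟨ψ, B, e, s⟩ := spec 3 h3 hx h
  exact ((by decide : ∀ e : Fin 3 → ZMod 3, 12 ≤ cnt e) e).trans s.cnt_le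
end

/-! ### `SL₂` -/

section
variable {E : Type} [Field E]
theorem wy_yy1 : wy E * yy 1 = -up 1 := by ext i j; fin_cases i <;> fin_cases j <;> simp [wy_val, yy_val, up_val]
theorem yy_cube : yy (1 : Eˣ) ^ 3 = 1 := cube (by simp [yy_val])
theorem cm_eq (t : E) : cm t = -(wy E * up t) := by ext i j; fin_cases i <;> fin_cases j <;> simp [wy_val, cm_val, up_val]
theorem up_cj {s t : E} (a : E) (a0 : a ≠ 0) (h : a * a * s = t) : IsConj (up s) (up t) :=
  isConj_iff.2 ⟨_, mul_inv_eq_of_eq_mul (h ▸ dg_up (Units.mk0 a a0) s)⟩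
theorem up_neg (s : E) : up (-s) = (up s)⁻¹ := eq_inv_of_mul_eq_one_left (by rw [← up_add, neg_add_cancel, up_zero])
theorem conj_up {g : SL(2, E)} (h : g.1 0 0 + g.1 1 1 = 2) : ∃ c, IsConj (up c) g := by
  have d := det2 g
  by_cases c : g.1 1 0 = 0
  · have a : g.1 0 0 = 1 := sub_eq_zero.1 (mul_self_eq_zero.1 (by grind))
    refine ⟨g.1 0 1, (show up (g.1 0 1) = g from ?_) ▸ .refl _⟩
    ext i j; fin_cases i <;> fin_cases j <;> simp [up_val, a, c]; grind
  let P : SL(2, E) := ⟨!![g.1 0 0 - 1, -(g.1 1 0)⁻¹; g.1 1 0, 0], by simp [det_fin_two, c]⟩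
  have pv : P.1 = !![g.1 0 0 - 1, -(g.1 1 0)⁻¹; g.1 1 0, 0] := rfl
  refine ⟨-(g.1 1 0)⁻¹, isConj_iff.2 ⟨P, mul_inv_eq_of_eq_mul ?_⟩⟩
  ext i j; fin_cases i <;> fin_cases j <;> simp [pv, up_val, Matrix.mul_apply] <;> field_simp <;> grind
theorem cls4 {g : SL(2, E)} (h : (g.1 0 0 + g.1 1 1) ^ 2 = 4) : ∃ c, IsConj (up c) g ∨ IsConj (up c) (-g) := by
  rcases sq_eq_sq_iff_eq_or_eq_neg.1 (h.trans (by norm_num : (4 : E) = 2 ^ 2)) with h | h
  · exact (conj_up h).imp fun _ => .inl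
  · exact (conj_up (g := -g) (by simp; linear_combination -h)).imp fun _ => .inr
theorem gen_p [Fintype E] (q : (Fintype.card E).Prime) {H : Subgroup PSL(2, E)} (h : π E (up 1) ∈ H) {g : SL(2, E)}
    (hg : π E g ∈ H) (c : g.1 1 0 ≠ 0) : H = ⊤ := by
  refine top_of (fun t => ?_) hg c
  obtain ⟨z, rfl⟩ := (ZMod.ringEquivOfPrime E q rfl).surjective t
  obtain ⟨n, rfl⟩ := ZMod.intCast_surjective z
  rw [map_intCast, ← mul_one (n : E), ← up_zpow]
  exact zpow_mem h n
theorem gen2 [Fintype E] (q : (Fintype.card E).Prime) {a b : SL(2, E)} (h : a * b = -up 1) (c : a.1 1 0 ≠ 0) :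
    Subgroup.closure {π E a, π E b} = ⊤ := by
  have m : π E a ∈ Subgroup.closure {π E a, π E b} := Subgroup.subset_closure (by simp)
  refine gen_p q ?_ m c
  rw [← π_neg (up 1), ← h, map_mul]
  exact mul_mem m (Subgroup.subset_closure (by simp))
/-- conjugation by `GL₂` -/
def cjG (m : GL (Fin 2) E) : SL(2, E) ≃* SL(2, E) where
  toFun a := ⟨m.val * a.1 * (m⁻¹).val, by rw [det_units_conj, a.2]⟩
  invFun a := ⟨(m⁻¹).val * a.1 * m.val, by rw [det_units_conj', a.2]⟩
  left_inv a := Subtype.ext (by simp [Matrix.mul_assoc])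
  right_inv a := Subtype.ext (by simp [Matrix.mul_assoc])
  map_mul' a b := Subtype.ext (show m.val * (a.1 * b.1) * _ = m.val * a.1 * _ * (m.val * b.1 * _) by
    simp only [Matrix.mul_assoc, Units.inv_mul_cancel_left])
end

/-! ### trace functions -/

/-- the trace function of a faithful symplectic representation of `SL₂(E)` -/
structure Tf {k E : Type*} [Field k] [Field E] (ρ : SL(2, E) →* G6 k) : Prop where
  sp : ∀ g, ρ g ∈ S6 k
  neg : ρ (-1) = -1

section
variable {k : Type*} [Field k] {E : Type} [Field E] {ρ : SL(2, E) →* G6 k} (h : Tf ρ)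
theorem f_cj {a b : SL(2, E)} (c : IsConj a b) : T (ρ a) = T (ρ b) := T_conj (ρ.map_isConj c)
include h
theorem Tf.map {K : Type*} [Field K] (σ : k →+* K) : Tf ((GeneralLinearGroup.map σ).comp ρ) :=
  ⟨fun g => (gm_mem σ).2 (h.sp g), by rw [MonoidHom.comp_apply, h.neg, gm_neg, map_one]⟩
theorem Tf.ρ_neg (g : SL(2, E)) : ρ (-g) = -ρ g := by rw [← neg_one_mul, map_mul, h.neg, neg_one_mul]
theorem Tf.f_neg (g : SL(2, E)) : T (ρ (-g)) = -T (ρ g) := by rw [h.ρ_neg, T_neg]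
theorem Tf.f_inv (g : SL(2, E)) : T (ρ g⁻¹) = T (ρ g) := by rw [map_inv, T_inv (h.sp g)]
theorem Tf.f4 (h2 : (2 : k) ≠ 0) {g : SL(2, E)} (e : g * g = -1) : T (ρ g) = 0 := by
  have := h.f_inv g
  rw [inv_eq_of_mul_eq_one_right (show g * -g = 1 by rw [mul_neg, e, neg_neg]), h.f_neg] at this
  exact (mul_eq_zero.1 (show 2 * T (ρ g) = 0 by linear_combination -this)).resolve_left h2
theorem Tf.up_ne (h2 : (2 : k) ≠ 0) {s : E} (s0 : s ≠ 0) : ρ (up s) ≠ 1 := fun e =>
  s0 (H26.O7.up_ne ρ (fun a => h2 (by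
    have := congrArg (fun z : G6 k => z.val (.inl 0) (.inl 0)) (h.neg.symm.trans a)
    simp at this; linear_combination -this)) e)
variable (p : ℕ) [Fact p.Prime] [CharP k p] (n : ℕ)
theorem Tf.fx {g : SL(2, E)} {m : ℕ} (e : g ^ (m + 1) = 1) (c : p ^ n % (m + 1) = 1 ∨ p ^ n % (m + 1) = m) :
    T (ρ g) ^ p ^ n = T (ρ g) := by
  rw [← T_pow, ← map_pow, pow_eq_pow_mod _ e]
  rcases c with c | c <;> rw [c]
  · rw [pow_one]
  · rw [eq_inv_of_mul_eq_one_left ((pow_succ g m).symm.trans e), h.f_inv]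
theorem Tf.fneg (p2 : p ≠ 2) {g : SL(2, E)} (e : T (ρ (-g)) ^ p ^ n = T (ρ (-g))) : T (ρ g) ^ p ^ n = T (ρ g) := by
  rwa [h.f_neg, ((Nat.Prime.odd_of_ne_two Fact.out p2).pow).neg_pow, neg_inj] at e
theorem Tf.f33 (h3 : (3 : k) = 0) {g : SL(2, E)} (e : g ^ 3 = 1) : T (ρ g) = 0 := by
  have := Fact.mk Nat.prime_three
  have : CharP k 3 := (CharP.charP_iff_prime_eq_zero Nat.prime_three).2 h3
  have := T_pow 3 (ρ g) 1
  rw [pow_one, ← map_pow, e, map_one, T_one] at this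
  exact pow_eq_zero_iff (n := 3) (by norm_num) |>.1 (by linear_combination 2 * h3 - this)
theorem Tf.f3 {g : SL(2, E)} (e : g ^ 3 = 1) : T (ρ g) ^ p ^ n = T (ρ g) := by
  by_cases h3 : p = 3
  · rw [h.f33 (by subst h3; exact CharP.cast_eq_zero k 3) e, zero_pow (pow_pos (Nat.Prime.pos Fact.out) n).ne']
  refine h.fx p n (m := 2) e ?_
  have : ¬ 3 ∣ p ^ n := fun d => h3 ((Nat.prime_dvd_prime_iff_eq Nat.prime_three Fact.out).1
    (Nat.prime_three.dvd_of_dvd_pow d)).symm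
  omega
theorem Tf.fup (p2 : p ≠ 2) (u : ∀ c, T (ρ (up ((p ^ n : ℕ) * c))) = T (ρ (up c))) {g : SL(2, E)}
    (t : (g.1 0 0 + g.1 1 1) ^ 2 = 4) : T (ρ g) ^ p ^ n = T (ρ g) := by
  have a : ∀ c, T (ρ (up c)) ^ p ^ n = T (ρ (up c)) := fun c => by rw [← T_pow, ← map_pow, up_pow, u]
  obtain ⟨c, e | e⟩ := cls4 t
  · rw [← f_cj e, a]
  · exact h.fneg p n p2 (by rw [← f_cj e, a])
end

/-! ### covers -/

structure Cv {k G : Type*} [Field k] [Group G] {E : Type} [Field E] (P : Subgroup (G6 k)) (τ : P →* G) (e : PSL(2, E) ≃* G)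
    (φ : SL(2, E) →* P) : Prop extends Rq P τ where
  on : Function.Surjective φ
  eq : ∀ g, τ (φ g) = e (π E g)

section
variable {k G : Type u} [Field k] [Group G] {E : Type} [Field E] {P : Subgroup (G6 k)} {τ : P →* G}

theorem ex_cv (lf : LF.{u}) (h : Rq P τ) (r : ℕ) [Fact r.Prime] (h5 : 5 ≤ r) (l : L2 G r) :
    ∃ (e : PSL(2, ZMod r) ≃* G) (φ : SL(2, ZMod r) →* P), Cv P τ e φ := by
  obtain ⟨E, _, _, c, ⟨e⟩⟩ := l
  replace e := e.trans (H11.pslCongr (.refl _) (FiniteField.ringEquivOfCardEq (c.trans (ZMod.card r).symm)))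
  have := fin_P h
  have k : (e.toMonoidHom.comp τ).ker = τ.ker := MonoidHom.ker_mulEquiv_comp _ _
  obtain ⟨φ, a, b⟩ := lf (ZMod r) P (e.toMonoidHom.comp τ) (by rw [ZMod.card]; exact Nat.Prime.odd_of_ne_two Fact.out (by omega))
    (by rwa [ZMod.card]) (e.surjective.comp h.sur) (comm_top h) (k ▸ ker_cen h) (k ▸ card_ker h)
  exact ⟨e.symm, φ, h, a, fun g => e.eq_symm_apply.2 (b g)⟩

variable {e : PSL(2, E) ≃* G} {φ : SL(2, E) →* P} (h : Cv P τ e φ)
include h
theorem Cv.up {K : Type u} [Field K] (σ : k →+* K) : ∃ (τ' : P.map (GeneralLinearGroup.map σ) →* G) (φ' : _), Cv _ τ' e φ' ∧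
    (Subgroup.subtype _).comp φ' = (GeneralLinearGroup.map σ).comp (P.subtype.comp φ) := by
  obtain ⟨τ', a, b⟩ := upq σ h.toRq
  exact ⟨τ', ((GeneralLinearGroup.map σ).subgroupMap P).comp φ, ⟨a, (MonoidHom.subgroupMap_surjective _ _).comp h.on,
    fun g => (b _).trans (h.eq g)⟩, rfl⟩
theorem Cv.gn {a b : SL(2, E)} (g : Subgroup.closure {π E a, π E b} = ⊤) : Gn τ (φ a) (φ b) := by
  have := congrArg (Subgroup.map e.toMonoidHom) g
  rwa [MonoidHom.map_closure, Set.image_pair, Subgroup.map_top_of_surjective _ e.surjective, MulEquiv.coe_toMonoidHom,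
    ← h.eq, ← h.eq] at this
theorem Cv.range : (P.subtype.comp φ).range = P := by
  rw [MonoidHom.range_comp, MonoidHom.range_eq_top.2 h.on, ← MonoidHom.range_eq_map, Subgroup.range_subtype]
theorem Cv.tf (sc : SC.{u}) (cs : CS.{u}) [Fintype E] (q : (Fintype.card E).Prime) (h2 : (2 : k) ≠ 0)
    (h0 : (Fintype.card E : k) ≠ 0) : Tf (P.subtype.comp φ) := by
  refine ⟨fun g => h.sp (φ g).2, ((h.ker _).1 (by rw [h.eq, π_neg1, map_one])).resolve_left fun a => ?_⟩
  let σ := algebraMap k (AlgebraicClosure k)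
  obtain ⟨τ', φ', h', b⟩ := h.up σ
  replace a : φ' (-1) = 1 := Subtype.ext ((DFunLike.congr_fun b _).trans ((congrArg (GeneralLinearGroup.map σ) a).trans (map_one _)))
  have h2 : (2 : AlgebraicClosure k) ≠ 0 := map_ofNat σ 2 ▸ (_root_.map_ne_zero σ).2 h2
  have := (sc _ _ _ _ h'.toRq _ _ (h'.gn (gen2 q wy_yy1 (by simp [wy_val])))).2.2.1 h2
  have n : ¬ ((φ' (wy E)).1 = 1 ∨ (φ' (wy E)).1 = -1) := fun c => by
    have := (h'.ker _).2 c
    rw [h'.eq, map_eq_one_iff _ e.injective] at this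
    simpa [wy_val] using (π_one.1 this).1
  have := (cs _ h2 _ (h'.sp (φ' (wy E)).2)).2.1 (by rw [← SubmonoidClass.coe_pow, ← map_pow, pow_two, ww, a]; rfl)
    (fun c => n (.inl c)) fun c => n (.inr c)
  have := (cs _ h2 _ (h'.sp (φ' (yy 1)).2)).2.2.2.1 (by rw [← SubmonoidClass.coe_pow, ← map_pow, yy_cube, map_one]; rfl)
  have := (cs _ h2 _ (h'.sp (φ' (wy E) * φ' (yy 1)).2)).2.2.2.2.2.2.2.2.2 _
    (map_natCast σ (Fintype.card E) ▸ (_root_.map_ne_zero σ).2 h0) (by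
      rw [← SubmonoidClass.coe_pow, ← map_mul, wy_yy1, ← neg_one_mul, map_mul, a, one_mul, ← map_pow, up_pow,
        FiniteField.cast_card_eq_zero, zero_mul, up_zero, map_one]; rfl)
  omega
/-- Scott's lemma on the endomorphism ring -/
theorem Cv.sc (sc : SC.{u}) {K : Type u} [Field K] (σ : k →+* K) {a b : SL(2, E)} (g : Subgroup.closure {π E a, π E b} = ⊤) :
    ∀ ρ ∈ [(GeneralLinearGroup.map σ).comp (P.subtype.comp φ)],
      dh (ρ a).val (ρ a).val + dh (ρ b).val (ρ b).val + dh (ρ (a * b)).val (ρ (a * b)).val ≤ 38 := by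
  obtain ⟨τ', φ', h', c⟩ := h.up σ
  rw [List.forall_mem_singleton, ← c, map_mul]
  exact (sc _ _ _ _ h'.toRq _ _ (h'.gn g)).2.1
end

section
variable {F G : Type u} [Field F] [Fintype F] [Group G] {E : Type} [Field E] {H P : Subgroup (G6 F)} {τ : P →* G}
  {e : PSL(2, E) ≃* G} {φ : SL(2, E) →* P} (s : St H P τ) (h : Cv P τ e φ)
include s h
theorem Cv.fld (p : ℕ) [Fact p.Prime] [CharP F p] {n : ℕ} (n0 : n ≠ 0)
    (t : ∀ g, T (P.subtype.comp φ g) ^ p ^ n = T (P.subtype.comp φ g)) : Fintype.card F ≤ p ^ n := by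
  have a := (te.{u, 0} F).1 P s.top s.fld (RingHom.eqLocusField (iterateFrobenius F p n) (RingHom.id F)) fun x hx => by
    obtain ⟨g, e⟩ := h.on ⟨x, hx⟩
    obtain rfl : (φ g).1 = x := congrArg Subtype.val e
    exact t g
  have b := Nat.one_lt_pow n0 (Nat.Prime.one_lt (p := p) Fact.out)
  have := Nat.le_of_dvd (by omega) ((FiniteField.forall_pow_eq_one_iff F (p ^ n - 1)).1 fun x => Units.ext
    (mul_right_cancel₀ x.ne_zero (by
      rw [Units.val_pow_eq_pow_val, ← pow_succ, Nat.sub_add_cancel b.le, Units.val_one, one_mul]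
      exact (a ▸ Subfield.mem_top (x : F) : (x : F) ∈ RingHom.eqLocusField _ _))))
  omega
theorem Cv.out (c : Nat.card (MulAut PSL(2, E)) ≤ 2 * Nat.card PSL(2, E)) (m : GL (Fin 2) E) (g : SL(2, E))
    (hm : ∀ a, cjG m (cjG m a) = g * a * g⁻¹) :
    (∀ x ∈ H, x ∈ P ∨ -x ∈ P) ∨ ∃ x ∈ S6 F, x ^ 2 = φ g ∨ x ^ 2 = -φ g := by
  refine (ou F G H P τ s (by
    rwa [← Nat.card_congr e.toEquiv, ← Nat.card_congr (MulAut.congr e).toEquiv])).2.2.imp_right fun a => ?_
  obtain ⟨x, hx, b⟩ := a (MulAut.congr e (H11.quotCenterCongr (cjG m)))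
  have k : ∀ a (y : P), y.1 = x * (φ a).1 * x⁻¹ → τ y = τ (φ (cjG m a)) := fun a y c => by
    rw [b _ _ c, h.eq, h.eq]; simp
  have m1 := mul_mem (inv_mem (s.le (φ g).2)) (pow_mem hx 2)
  refine ⟨x, s.max.1.le hx, ?_⟩
  have := scal_pm (s.max.1.le m1) (s.cen _ m1 fun y hy => by
    obtain ⟨a, e⟩ := h.on ⟨y, hy⟩
    obtain rfl : (φ a).1 = y := congrArg Subtype.val e
    have k1 := lift_eq h.toRq (k a ⟨_, s.nrm x hx _ hy⟩ rfl)
    have k2 := lift_eq h.toRq (k (cjG m a) ⟨_, s.nrm x hx _ (φ _).2⟩ rfl)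
    rw [hm, map_mul, map_mul, map_inv] at k2
    rw [show ((φ g).1⁻¹ * x ^ 2) * (φ a).1 * ((φ g).1⁻¹ * x ^ 2)⁻¹ * (φ a).1⁻¹ =
      (φ g).1⁻¹ * (x * (x * (φ a).1 * x⁻¹) * x⁻¹) * (φ g).1 * (φ a).1⁻¹ by rw [pow_two]; group]
    refine pm_scal ?_
    dsimp only at k1 k2
    rcases k1 with k1 | k1 <;> rcases k2 with k2 | k2 <;> simp [k1, k2, mul_assoc])
  simpa [inv_mul_eq_iff_eq_mul] using this
end

theorem card_le_two {F : Type*} [Field F] [Fintype F] (p : ℕ) [Fact p.Prime] [CharP F p] (h : Fintype.card F ≤ p ^ 2) :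
    Fintype.card F = p ∨ Fintype.card F = p ^ 2 := by
  obtain ⟨n, -, hn⟩ := FiniteField.card F p
  have := (Nat.pow_le_pow_iff_right (Nat.Prime.one_lt (p := p) Fact.out)).1 (hn.symm.le.trans h)
  have := n.pos
  obtain e | e : (n : ℕ) = 1 ∨ (n : ℕ) = 2 := by omega
  exacts [.inl (by rw [hn, e, pow_one]), .inr (by rw [hn, e])]
theorem card_le_one {F : Type*} [Field F] [Fintype F] (p : ℕ) [Fact p.Prime] [CharP F p] (h : Fintype.card F ≤ p ^ 1) :
    Fintype.card F = p := by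
  have := Nat.pow_lt_pow_right (Nat.Prime.one_lt (p := p) Fact.out) (by norm_num : 1 < 2)
  exact (card_le_two p (by omega)).resolve_right (by omega)

end H24.S6
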