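/-
S5806: chunks `LX` and `L7`.
-/
import Cfsg.Agent.H24.S6a
import Cfsg.Agent.H11.Small

set_option autoImplicit false
set_option linter.unnecessarySeqFocus false
set_option linter.unusedSectionVars false

open Matrix Cfsg Cfsg.Geo H27.Asch Module H6.SP H24.O7
open H11.SP hiding up dg
open H26.O7 (up wy up_val wy_val up_add up_zero up_pow dg_up dg_val wy_inv)
open scoped MatrixGroups
namespace H24.S6
universe u

theorem lx : LX.{u} := by
  classical
  rintro K G _ _ _ p _ _ P τ h r o pr ⟨E, _, _, c, ⟨e⟩⟩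
  have r1 := Fintype.one_lt_card (α := E)
  obtain ⟨m, hm⟩ := id o
  have r3 : r ≠ 3 := fun r3 => by
    obtain ⟨f⟩ := H11.nonempty_psl2_three_equiv (c.trans r3)
    have := h.simp
    have := (e.trans f).symm.isSimpleGroup
    rcases this.eq_bot_or_eq_top_of_normal _ (alternatingGroup.normal_kleinFour (α := Fin 4) (by simp))
      with e | e <;> have := alternatingGroup.kleinFour_card_of_card_eq_four (α := Fin 4) (by simp)
    · simp [e] at this
    · rw [e, Subgroup.card_top, alternatingGroup.card_of_card_eq_four (by simp)] at this; omega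
  let j := e.symm.toMonoidHom.comp (uh E)
  let ι := MonoidHom.ofInjective (f := j) (e.symm.injective.comp uh_inj)
  obtain ⟨χ, χ1, W, w6, m0, mi, mc⟩ := w6 K G P τ h.toRq j.range r o (fun z => pr ((CharP.cast_eq_zero_iff K p r).1 z))
    (by rintro _ ⟨t, rfl⟩; rw [← map_pow, ← ofAdd_toAdd t, ← ofAdd_nsmul, ← c, card_nsmul_eq_zero, ofAdd_zero, map_one])
    (by rintro _ ⟨t, rfl⟩ _ ⟨s, rfl⟩; rw [← map_mul, mul_comm, map_mul])
    (fun z => by
      have := Nat.card_congr ι.toEquiv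
      rw [z, Subgroup.card_bot, Nat.card_congr Multiplicative.toAdd, Nat.card_eq_fintype_card] at this
      omega)
  let φ : E → j.range →* j.range := fun c => ι.toMonoidHom.comp
    ((AddMonoidHom.toMultiplicative (AddMonoidHom.mulLeft c)).comp ι.symm.toMonoidHom)
  have φv : ∀ c t, φ c (ι (.ofAdd t)) = ι (.ofAdd (c * t)) := fun c t => by simp [φ]
  have su : ∀ a, ∃ t, ι (.ofAdd t) = a := fun a => ⟨_, ι.apply_symm_apply a⟩
  have inj : Function.Injective fun c => χ.comp (φ c) := fun a b z => by_contra fun n => χ1 (MonoidHom.ext fun x => by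
    obtain ⟨t, rfl⟩ := su x
    have := DFunLike.congr_fun z (ι (.ofAdd (t / (a - b))))
    simp only [MonoidHom.comp_apply, φv] at this
    rw [← mul_div_cancel₀ t (sub_ne_zero.2 n), sub_mul, ofAdd_sub, map_div, map_div, this, div_self']; rfl)
  have s1 : ∀ a : E, a ≠ 0 → χ.comp (φ (a * a)) ∈ W := fun a a0 =>
    mc χ m0 (e.symm (π E (H26.O7.dg (.mk0 a a0)))) _ fun x => by
      obtain ⟨t, rfl⟩ := su x
      rw [φv]
      change e.symm (π E (up (a * a * t))) = _ * e.symm (π E (up t)) * _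
      rw [← map_inv, ← map_mul, ← map_mul, cj_up]; rfl
  have s2 : ∀ a : E, a ≠ 0 → χ.comp (φ (-(a * a))) ∈ W := fun a a0 => by
    convert mi _ (s1 a a0) using 1
    ext x
    obtain ⟨t, rfl⟩ := su x
    simp [φv]
  have cd : ∀ S : Finset E, (∀ c ∈ S, χ.comp (φ c) ∈ W) → S.card ≤ 6 := fun S hS =>
    (Finset.card_le_card_of_injOn _ hS inj.injOn).trans w6
  have c0 : (Finset.univ.erase (0 : E)).card = r - 1 := by rw [Finset.card_erase_of_mem (Finset.mem_univ _), Finset.card_univ, c]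
  have r11 : r ≠ 11 := fun r11 => by
    have := cd (Finset.univ.erase 0) fun x hx => by
      obtain ⟨z, rfl⟩ := (ZMod.ringEquivOfPrime E (by norm_num : Nat.Prime 11) (c.trans r11)).surjective x
      obtain ⟨a, a0, rfl | rfl⟩ := (by decide : ∀ z : ZMod 11, z ≠ 0 → ∃ a, a ≠ 0 ∧ (a * a = z ∨ -(a * a) = z)) z
        fun z0 => by simp [z0] at hx
      · rw [map_mul]; exact s1 _ (by simpa)
      · rw [map_neg, map_mul]; exact s2 _ (by simpa)
    omega
  have := Finset.card_le_mul_card_image (f := fun a : E => a * a) (Finset.univ.erase 0) 2 fun b hb => by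
    obtain ⟨a, -, rfl⟩ := Finset.mem_image.1 hb
    exact (Finset.card_le_card fun x hx => by simpa using mul_self_eq_mul_self_iff.1 (Finset.mem_filter.1 hx).2).trans
      (Finset.card_le_two (a := a) (b := -a))
  have := cd ((Finset.univ.erase 0).image fun a : E => a * a) fun b hb => by
    obtain ⟨a, a0, rfl⟩ := Finset.mem_image.1 hb
    exact s1 a (Finset.ne_of_mem_erase a0)
  omega

theorem two_ne' {F : Type*} [Field F] (p : ℕ) [Fact p.Prime] [CharP F p] {r : ℕ} (hr : r.Prime) (h : p ≠ r) : (r : F) ≠ 0 :=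
  fun z => h ((Nat.prime_dvd_prime_iff_eq Fact.out hr).1 ((CharP.cast_eq_zero_iff F p r).1 z))
theorem pow_ne' (p : ℕ) [Fact p.Prime] (r : ℕ) [Fact r.Prime] (h : p ≠ r) (n : ℕ) : ((p ^ n : ℕ) : ZMod r) ≠ 0 := by
  rw [Nat.cast_pow]; exact pow_ne_zero _ (two_ne' r Fact.out h.symm)

instance f7 : Fact (Nat.Prime 7) := ⟨by norm_num⟩
theorem up7 {k : Type*} [Field k] {ρ : SL(2, ZMod 7) →* G6 k} (h : Tf ρ) {a : ZMod 7} (a0 : a ≠ 0) (c : ZMod 7) :
    T (ρ (up (a * c))) = T (ρ (up c)) := by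
  obtain ⟨s, s0, rfl | rfl⟩ := (by decide : ∀ z : ZMod 7, z ≠ 0 → ∃ a, a ≠ 0 ∧ (a * a = z ∨ -(a * a) = z)) a a0
  · exact (f_cj (up_cj s s0 rfl)).symm
  · rw [neg_mul, up_neg, h.f_inv]; exact (f_cj (up_cj s s0 rfl)).symm

theorem l7 (lf : LF.{u}) (sc : SC.{u}) (cs : CS.{u}) (r2 : R2.{u}) : L7.{u} := by
  intro F G _ _ _ p _ _ H P τ s p2 p7 l
  obtain ⟨e, φ, h⟩ := ex_cv lf s.toRq 7 (by norm_num) l
  have h2 : (2 : F) ≠ 0 := by exact_mod_cast two_ne' (F := F) p Nat.prime_two p2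
  have t := h.tf sc cs (by rw [ZMod.card]; exact Fact.out) h2 (by rw [ZMod.card]; exact two_ne' p Fact.out p7)
  have sq := FiniteField.isSquare_two_iff.1 ((r2 F h2 _ (t.sp (cm 3))).1 (by rw [← map_pow, ← t.neg]; congr 1; decide))
  have k : ∀ n, n ≠ 0 → p ^ n % 8 = 1 ∨ p ^ n % 8 = 7 → Fintype.card F ≤ p ^ n := fun n n0 c => h.fld s p n0 fun g => by
    by_cases a : (g.1 0 0 + g.1 1 1) ^ 2 = 4
    · exact t.fup p n p2 (up7 t (pow_ne' p 7 p7 n)) a
    rw [← f_cj (conj_tr (by rw [ZMod.card]; decide) g a)]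
    rcases (by decide : ∀ t : ZMod 7, t ^ 2 ≠ 4 → cm t ^ (7 + 1) = 1 ∨ cm t ^ 3 = 1 ∨ (-cm t) ^ 3 = 1) _ a with b | b | b
    exacts [t.fx p n b c, t.f3 p n b, t.fneg p n p2 (t.f3 p n b)]
  have := (Nat.Prime.eq_two_or_odd (p := p) Fact.out).resolve_left p2
  by_cases c : p % 8 = 1 ∨ p % 8 = 7
  · exact .inl ⟨card_le_one p (k 1 one_ne_zero (by rwa [pow_one])), p7, by omega⟩
  refine .inr ⟨(card_le_two p (k 2 two_ne_zero (.inl ?_))).resolve_left (by omega), by omega⟩
  obtain c | c : p % 8 = 3 ∨ p % 8 = 5 := by omega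
  all_goals rw [Nat.pow_mod, c]

end H24.S6
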