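/-
S5806: chunk `L13`.
-/
import Cfsg.Agent.H24.S6b

set_option autoImplicit false
set_option linter.unnecessarySeqFocus false
set_option linter.unusedSectionVars false

open Matrix Cfsg Cfsg.Geo H27.Asch Module H6.SP H24.O7
open H11.SP hiding up dg
open H26.O7 (up wy up_val wy_val up_add up_zero up_pow dg_up dg_val wy_inv)
open scoped MatrixGroups
namespace H24.S6
universe u

theorem vec3 {α : Type*} (e : Fin 3 → α) : e = ![e 0, e 1, e 2] := by ext i; fin_cases i <;> rfl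

instance f13 : Fact (Nat.Prime 13) := ⟨by norm_num⟩
set_option synthInstance.maxSize 1000 in
theorem e13 : ∀ a b c : ZMod 13, ∀ e ∈ [ex ![a, b, c]], (∀ i, ∃ j, e j = (4 : ℕ) * e i) → (∃ i, e i ≠ 0) →
    (∀ i j, e j - 1 * e i = 0 ↔ j = i) ∧ ∀ b, b ^ 6 = -1 → ∀ i j, e j - b * e i ≠ 0 := by
  simp only [List.forall_mem_singleton]; decide +kernel

theorem up_val' {r : ℕ} [Fact r.Prime] (s : ZMod r) : up s = up 1 ^ s.val := by rw [up_pow, ZMod.natCast_zmod_val, mul_one]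

section
variable {K : Type*} [Field K] [IsAlgClosed K] {ρ : SL(2, ZMod 13) →* G6 K} (h : Tf ρ) (h2 : (2 : K) ≠ 0)
  (h0 : ((13 : ℕ) : K) ≠ 0)
include h h2 h0

theorem nb : (∑ s, T (ρ (up s)) • (ρ (up (-(1 * s)))).val = ((13 : ℕ) : K) • 1) ∧
    ∀ b, b ^ 6 = -1 → ∑ s, T (ρ (up s)) • (ρ (up (-(b * s)))).val = 0 := by
  obtain ⟨ψ, B, e, s⟩ := spec 13 h0 (h.sp (up 1)) (by rw [← map_pow, ← map_one ρ]; congr 1; decide)
  have := e13 (e 0) (e 1) (e 2) _ (List.mem_singleton_self _)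
  rw [← vec3 e] at this
  obtain ⟨a, b⟩ := this (s.cj (by rw [← map_pow, up_pow]; exact ρ.map_isConj (up_cj 2 (by decide) (by decide))))
    (s.ne (h.up_ne h2 one_ne_zero))
  have k : ∀ b, ∑ s, T (ρ (up s)) • (ρ (up (-(b * s)))).val =
      B.val * diagonal (fun i => ∑ j, if ex e j - b * ex e i = 0 then ((13 : ℕ) : K) else 0) * (B⁻¹).val := fun b => by
    have : ∀ t, T (ρ (up t)) • (ρ (up (-(b * t)))).val =
        B.val * diagonal (fun i => ∑ j, ψ (t * (ex e j - b * ex e i))) * (B⁻¹).val := fun t => by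
      rw [up_val' t, up_val' (-_), map_pow, map_pow, s.T, s.pw, ← Matrix.smul_mul, ← Matrix.mul_smul, ← diagonal_smul]
      congr 3
      ext i
      simp only [ZMod.natCast_zmod_val, Pi.smul_apply, smul_eq_mul, Finset.sum_mul, ← AddChar.map_add_eq_mul]
      congr! 2; ring
    simp only [this]
    rw [← Matrix.sum_mul, ← Matrix.mul_sum]
    congr 2
    ext i j
    rw [Matrix.sum_apply]
    by_cases c : i = j
    · subst c
      simp only [diagonal_apply_eq]
      rw [Finset.sum_comm]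
      simp only [AddChar.sum_mulShift _ s.pr, ZMod.card]
      simp
    · simp [c]
  refine ⟨?_, fun c hc => ?_⟩
  · simp only [k, a, Finset.sum_ite_eq', Finset.mem_univ, if_true]
    rw [← smul_one_eq_diagonal, Matrix.mul_smul, Matrix.smul_mul, Matrix.mul_one, Units.mul_inv]
  · simp [k, b c hc]

theorem fx13 (p : ℕ) [Fact p.Prime] [CharP K p] (p2 : p ≠ 2) (n : ℕ) (c : IsSquare ((p ^ n : ℕ) : ZMod 13))
    (c0 : ((p ^ n : ℕ) : ZMod 13) ≠ 0) (g : SL(2, ZMod 13)) : T (ρ g) ^ p ^ n = T (ρ g) := by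
  obtain ⟨a, ha⟩ := c
  have u : ∀ {g : SL(2, ZMod 13)}, _ → T (ρ g) ∈ RingHom.eqLocusField (iterateFrobenius K p n) (RingHom.id K) :=
    h.fup p n p2 fun c => ha ▸ (f_cj (up_cj a (fun z => c0 (by simp [ha, z])) rfl)).symm
  by_cases a : (g.1 0 0 + g.1 1 1) ^ 2 = 4
  · exact u a
  have o : Odd (Fintype.card (ZMod 13)) := by rw [ZMod.card]; decide
  rw [← f_cj (conj_tr o g a), cm_eq]
  refine h.fneg p n p2 ?_
  rw [neg_neg]
  generalize g.1 0 0 + g.1 1 1 = t
  obtain ⟨n1, n2⟩ := nb h h2 h0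
  have k : ∀ (x : SL(2, ZMod 13)) (b : ZMod 13), ((ρ (x * up (b * t))).val * ∑ s, T (ρ (up s)) • (ρ (up (-(b * s)))).val).trace =
      ∑ s, T (ρ (up s)) * T (ρ (x * up (b * (t - s)))) := fun x b => by
    rw [Matrix.mul_sum, trace_sum]
    refine Finset.sum_congr rfl fun s _ => ?_
    rw [Matrix.mul_smul, trace_smul, ← Units.val_mul, ← map_mul, mul_assoc, ← up_add, mul_sub, sub_eq_add_neg]; rfl
  have k1 := k (wy _) 1
  have k2 := k (wy _ * H26.O7.dg (.mk0 2 (by decide))) 7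
  rw [n1, Matrix.mul_smul, Matrix.mul_one, trace_smul, one_mul] at k1
  rw [n2 7 (by decide), Matrix.mul_zero, trace_zero] at k2
  have m := sum_mem (S := RingHom.eqLocusField (iterateFrobenius K p n) (RingHom.id K)) (t := Finset.univ) (f := fun s =>
    T (ρ (up s)) * (T (ρ (wy _ * up (1 * (t - s)))) - T (ρ (wy _ * H26.O7.dg (.mk0 2 (by decide)) * up (7 * (t - s))))))
    fun s _ => mul_mem (u (by simp [up_val]; decide)) (by
      generalize t - s = x
      have e1 : ∀ g ∈ [wy _ * up (1 * x)], g.1 0 0 + g.1 1 1 = -x := by simp [up_val, wy_val]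
      have e2 : ∀ g ∈ [wy _ * H26.O7.dg (.mk0 2 (by decide)) * up (7 * x)], g.1 0 0 + g.1 1 1 = -x := by
        simp [up_val, wy_val, dg_val, ← mul_assoc]; rw [show (2 * 7 : ZMod 13) = 1 by decide, one_mul]
      rw [List.forall_mem_singleton] at e1 e2
      by_cases c : (-x) ^ 2 = 4
      · exact sub_mem (u (by rwa [e1])) (u (by rwa [e2]))
      · have c1 := f_cj (ρ := ρ) (conj_tr o _ (e1 ▸ c :))
        have c2 := f_cj (ρ := ρ) (conj_tr o _ (e2 ▸ c :))
        rw [← c1, ← c2, e1, e2, sub_self]; exact zero_mem _)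
  simp only [mul_sub, Finset.sum_sub_distrib] at m k1 k2
  rw [← k1, ← k2, sub_zero, smul_eq_mul] at m
  have := mul_mem (inv_mem (natCast_mem _ 13)) m
  rwa [inv_mul_cancel_left₀ h0] at this

theorem ns13 (p : ℕ) [Fact p.Prime] [CharP K p] (c : (p : ZMod 13) ^ 6 = -1) : ¬ ∀ g, T (ρ g) ^ p = T (ρ g) := fun a => by
  obtain ⟨n1, n2⟩ := nb h h2 h0
  have := n2 _ c
  have p0 : (p : ZMod 13) ≠ 0 := fun z => by rw [z] at c; revert c; decide
  have b : ∀ s, T (ρ (up s)) = T (ρ (up (p * s))) := fun s => by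
    rw [← a, ← up_pow, map_pow, ← pow_one p, T_pow]
  rw [← Equiv.sum_comp (Equiv.mulLeft₀ _ p0)] at n1
  simp only [Equiv.mulLeft₀_apply, one_mul, ← b] at n1
  exact h0 (by simpa using congrFun (congrFun (n1.symm.trans this) (.inl 0)) (.inl 0))
end

theorem l13 (lf : LF.{u}) (sc : SC.{u}) (cs : CS.{u}) : L13.{u} := by
  intro F G _ _ _ p _ _ H P τ s p2 p7 l
  obtain ⟨e, φ, h⟩ := ex_cv lf s.toRq 13 (by norm_num) l
  have h2 : (2 : F) ≠ 0 := by exact_mod_cast two_ne' (F := F) p Nat.prime_two p2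
  let σ := algebraMap F (AlgebraicClosure F)
  have t := (h.tf sc cs (by rw [ZMod.card]; exact Fact.out) h2 (by rw [ZMod.card]; exact two_ne' p Fact.out p7)).map σ
  have h2 : (2 : AlgebraicClosure F) ≠ 0 := by exact_mod_cast two_ne' (F := AlgebraicClosure F) p Nat.prime_two p2
  have h0 := two_ne' (F := AlgebraicClosure F) p Fact.out p7
  have k : ∀ n, n ≠ 0 → IsSquare ((p ^ n : ℕ) : ZMod 13) → Fintype.card F ≤ p ^ n := fun n n0 c => h.fld s p n0 fun g =>
    σ.injective (by rw [map_pow, ← gm_T]; exact fx13 t h2 h0 p p2 n c (pow_ne' p 13 p7 n) g)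
  have p0 := pow_ne' p 13 p7 1
  rw [pow_one, ← ZMod.natCast_mod p 13] at p0
  have := Nat.mod_lt p (by norm_num : 0 < 13)
  by_cases c : p % 13 = 1 ∨ p % 13 = 12 ∨ p % 13 = 3 ∨ p % 13 = 10 ∨ p % 13 = 4 ∨ p % 13 = 9
  · refine .inl ⟨card_le_one p (k 1 one_ne_zero ?_), c⟩
    rw [pow_one, ← ZMod.natCast_mod p 13]
    rcases c with c | c | c | c | c | c <;> rw [c] <;> decide
  have : p % 13 ≠ 0 := fun z => p0 (by rw [z]; rfl)
  have c : p % 13 = 2 ∨ p % 13 = 11 ∨ p % 13 = 5 ∨ p % 13 = 8 ∨ p % 13 = 6 ∨ p % 13 = 7 := by omega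
  refine .inr ⟨(card_le_two p (k 2 two_ne_zero ⟨p, by rw [pow_two, Nat.cast_mul]⟩)).resolve_left fun q =>
    ns13 t h2 h0 p ?_ fun g => ?_, c⟩
  · rw [← ZMod.natCast_mod p 13]
    rcases c with c | c | c | c | c | c <;> rw [c] <;> decide
  · rw [MonoidHom.comp_apply, gm_T, ← map_pow, ← q, FiniteField.pow_card]

end H24.S6
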