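/-
S5806: chunk `A5`.
-/
import Cfsg.Agent.H24.S6c
import Cfsg.Agent.H24.BinIco
import Cfsg.Agent.S0813

set_option autoImplicit false
set_option linter.unnecessarySeqFocus false
set_option linter.unusedSectionVars false

open Matrix Cfsg Cfsg.Geo H27.Asch Module H6.SP H24.O7
open H11.SP hiding up dg
open H26.O7 (up wy up_val wy_val up_add up_zero up_pow dg_up dg_val wy_inv)
open scoped MatrixGroups
namespace H24.S6
universe u

theorem dh_neg {k : Type*} [Field k] (x : G6 k) : dh (-x).val (-x).val = dh x.val x.val :=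
  congrArg (fun S : Submodule k (M6 k) => finrank k S) (Submodule.ext fun m => by simp [mem_hm])

theorem cls_ext {k : Type*} [Field k] {E : Type} [Field E] [Fintype E] (o : Odd (Fintype.card E)) {ρ ρ' : SL(2, E) →* G6 k}
    (n : ρ (-1) = -1) (n' : ρ' (-1) = -1) (u : ∀ c, c ≠ 0 → T (ρ (up c)) = T (ρ' (up c)))
    (c : ∀ t, t ^ 2 ≠ 4 → T (ρ (cm t)) = T (ρ' (cm t))) (g : SL(2, E)) : T (ρ g) = T (ρ' g) := by
  replace u : ∀ c, T (ρ (up c)) = T (ρ' (up c)) := fun c => by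
    by_cases c0 : c = 0
    exacts [by rw [c0, up_zero, map_one, map_one], u c c0]
  by_cases a : (g.1 0 0 + g.1 1 1) ^ 2 = 4
  · obtain ⟨c, e | e⟩ := cls4 a
    · rw [← f_cj e, ← f_cj e, u]
    · have := u c
      rwa [f_cj e, f_cj e, ← neg_one_mul, map_mul, map_mul, n, n', neg_one_mul, neg_one_mul, T_neg, T_neg, neg_inj] at this
  · rw [← f_cj (conj_tr o g a), ← f_cj (conj_tr o g a), c _ a]

theorem conj_tr' {E : Type} [Field E] [Fintype E] (o : Odd (Fintype.card E)) {g : SL(2, E)} (t : E) (e : g.1 0 0 + g.1 1 1 = t)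
    (h : t ^ 2 ≠ 4) : IsConj (cm t) g := e ▸ conj_tr o g (e ▸ h)

theorem card_aut (r : ℕ) [Fact r.Prime] (h : 5 ≤ r) : Nat.card (MulAut PSL(2, ZMod r)) ≤ 2 * Nat.card PSL(2, ZMod r) := by
  have a := Cfsg.Agent.S0813.result (F := ZMod r) r 1 le_rfl (by rw [ZMod.card, pow_one]) 2 le_rfl fun _ => by rw [pow_one]; omega
  rw [a, H11.card_pgl_eq_card_sl, H11.card_sl_two, ← H11.card_psl_two]
  simpa using Nat.mul_le_mul_right _ (Nat.gcd_le_left _ two_pos)

theorem Sc.sum {K : Type*} [Field K] {n : ℕ} [NeZero n] {ψ : AddChar (ZMod n) K} {x B : G6 K} {e : Fin 3 → ZMod n}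
    (h : Sc ψ x B e) (n1 : (1 : ZMod n) ≠ 0) : ((Finset.univ : Finset (ZMod n)).val.map ψ).sum = 0 := by
  simpa [n1] using AddChar.sum_mulShift 1 h.pr
theorem Sc.Tk {K : Type*} [Field K] {n : ℕ} [NeZero n] {ψ : AddChar (ZMod n) K} {x B : G6 K} {e : Fin 3 → ZMod n}
    (h : Sc ψ x B e) (k : ℕ) : H6.SP.T (x ^ k) = ((Finset.univ.val.map fun i => k * ex e i).map ψ).sum := by
  rw [Multiset.map_map]; exact h.T k

/-- an element of order three with a small centraliser has trace zero -/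
theorem tr3 {K : Type*} [Field K] [IsAlgClosed K] {x : G6 K} (hx : x ∈ S6 K) (h3 : ((3 : ℕ) : K) ≠ 0) (h : x ^ 3 = 1)
    (d : dh x.val x.val ≤ 12) : T x = 0 := by
  obtain ⟨ψ, B, e, s⟩ := spec 3 h3 hx h
  rw [s.T1, (by decide : ∀ e : Fin 3 → ZMod 3, cnt e ≤ 12 → Finset.univ.val.map (ex e) = Finset.univ.val + Finset.univ.val) e
    (s.cnt_le.trans d), Multiset.map_add, Multiset.sum_add, s.sum (by decide), add_zero]

instance f5 : Fact (Nat.Prime 5) := ⟨by norm_num⟩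
theorem e5 : ∀ a b c : ZMod 5, 8 ≤ cnt ![a, b, c] ∧ (cnt ![a, b, c] ≤ 8 → ∀ k : ZMod 5, k ≠ 0 →
    (Finset.univ.val.map fun i => k * ex ![a, b, c] i) = 0 ::ₘ Finset.univ.val) := by decide +kernel

theorem tr5 {K : Type*} [Field K] [IsAlgClosed K] {ρ : SL(2, ZMod 5) →* G6 K} (h : Tf ρ) (h2 : (2 : K) ≠ 0)
    (h0 : ((5 : ℕ) : K) ≠ 0) (d : dh (ρ (wy _)).val (ρ (wy _)).val + dh (ρ (yy 1)).val (ρ (yy 1)).val +
      dh (ρ (wy _ * yy 1)).val (ρ (wy _ * yy 1)).val ≤ 38) : (∀ c, c ≠ 0 → T (ρ (up c)) = 1) ∧ T (ρ (yy 1)) = 0 := by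
  obtain ⟨ψ, B, e, s⟩ := spec 5 h0 (h.sp (up 1)) (by rw [← map_pow, ← map_one ρ]; congr 1; decide)
  have k := e5 (e 0) (e 1) (e 2)
  rw [← vec3 e] at k
  have y3 : ρ (yy 1) ^ 3 = 1 := by rw [← map_pow, yy_cube, map_one]
  have := dh4 (h.sp (wy _)) h2 (by rw [← map_pow, pow_two, ww, h.neg])
  have := dh3 (h.sp (yy 1)) y3
  have := s.cnt_le
  rw [wy_yy1, h.ρ_neg, dh_neg] at d
  refine ⟨fun c c0 => ?_, ?_⟩
  · rw [up_val', map_pow, s.Tk, ZMod.natCast_zmod_val, k.2 (by omega) c c0, Multiset.map_cons, Multiset.sum_cons,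
      s.sum (by decide), add_zero, AddChar.map_zero_eq_one]
  by_cases h3 : ((3 : ℕ) : K) = 0
  exacts [h.f33 (by exact_mod_cast h3) yy_cube, tr3 (h.sp _) h3 y3 (by omega)]

/-! ### the tensor product subgroup -/

section
variable {E : Type} [Field E]
def s2 (h : SL(2, E)) : Matrix (Fin 3) (Fin 3) E :=
  !![h.1 0 0 * h.1 0 0, h.1 0 0 * h.1 0 1, h.1 0 1 * h.1 0 1;
    2 * h.1 0 0 * h.1 1 0, h.1 0 0 * h.1 1 1 + h.1 0 1 * h.1 1 0, 2 * h.1 0 1 * h.1 1 1;
    h.1 1 0 * h.1 1 0, h.1 1 0 * h.1 1 1, h.1 1 1 * h.1 1 1]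
theorem s2_one : s2 (1 : SL(2, E)) = 1 := by ext i j; fin_cases i <;> fin_cases j <;> simp [s2]
theorem s2_mul (g h : SL(2, E)) : s2 (g * h) = s2 g * s2 h := by
  ext i j; fin_cases i <;> fin_cases j <;> simp [s2, Matrix.mul_apply, Fin.sum_univ_three] <;> ring
def qq : Matrix (Fin 3) (Fin 3) E := !![0, 0, -2; 0, 1, 0; -2, 0, 0]
theorem s2_q (h : SL(2, E)) : (s2 h)ᵀ * (qq * s2 h) = qq := by
  have := det2 h
  ext i j; fin_cases i <;> fin_cases j <;> simp [s2, qq, Matrix.mul_apply, Fin.sum_univ_three] <;> grind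
theorem s2_tr (h : SL(2, E)) : (s2 h).trace = (h.1 0 0 + h.1 1 1) ^ 2 - 1 := by
  have := det2 h
  simp [s2, trace_fin_three]; grind
def kp : SL(2, E) × SL(2, E) →* G6 E := MonoidHom.toHomUnits
  { toFun x := fromBlocks (x.1.1 0 0 • s2 x.2) (x.1.1 0 1 • s2 x.2) (x.1.1 1 0 • s2 x.2) (x.1.1 1 1 • s2 x.2)
    map_one' := by simp [s2_one]
    map_mul' x y := by simp [fromBlocks_multiply, s2_mul, Matrix.mul_apply, add_smul, smul_smul, mul_comm] }
theorem kp_val (g h : SL(2, E)) :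
    (kp (g, h)).val = fromBlocks (g.1 0 0 • s2 h) (g.1 0 1 • s2 h) (g.1 1 0 • s2 h) (g.1 1 1 • s2 h) := rfl
theorem kp_T (g h : SL(2, E)) : T (kp (g, h)) = (g.1 0 0 + g.1 1 1) * ((h.1 0 0 + h.1 1 1) ^ 2 - 1) := by
  rw [T, kp_val, ← s2_tr]; simp [trace, Fintype.sum_sum_type, add_mul, Finset.mul_sum, Finset.sum_add_distrib]
theorem kp_J (x : SL(2, E) × SL(2, E)) : (kp x).valᵀ * fromBlocks 0 (-qq) qq 0 * (kp x).val = fromBlocks 0 (-qq) qq 0 := by
  obtain ⟨g, h⟩ := x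
  have := det2 g
  have k := s2_q h
  rw [kp_val]
  generalize s2 h = S at k
  generalize qq (E := E) = Q at k
  rw [fromBlocks_transpose, Matrix.mul_assoc, fromBlocks_multiply, fromBlocks_multiply]
  simp only [transpose_smul, Matrix.zero_mul, Matrix.mul_smul, Matrix.smul_mul, Matrix.neg_mul, zero_add, add_zero, Matrix.mul_neg,
    smul_neg, smul_zero, k]
  refine fromBlocks_inj.2 ⟨?_, ?_, ?_, ?_⟩ <;> ext i j <;> simp <;> grind
theorem tr_sq (g : SL(2, E)) : (g * g).1 0 0 + (g * g).1 1 1 = (g.1 0 0 + g.1 1 1) ^ 2 - 2 := by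
  have := det2 g
  simp [Matrix.mul_apply]; grind
theorem tr_cj {g h : SL(2, E)} (c : IsConj g h) : g.1 0 0 + g.1 1 1 = h.1 0 0 + h.1 1 1 := by
  obtain ⟨d, rfl⟩ := isConj_iff.1 c
  have := det2 d
  simp [Matrix.mul_apply, SpecialLinearGroup.coe_inv, adjugate_fin_two]; grind
theorem five {M : SL(2, E)} (h : (M.1 0 0 + M.1 1 1) ^ 2 + (M.1 0 0 + M.1 1 1) = 1) : M ^ 5 = 1 := by
  have d := det2 M
  ext i j
  fin_cases i <;> fin_cases j <;> simp [pow_succ, Matrix.mul_apply] <;> grind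

theorem ex_ico [Fintype E] (o : Odd (Fintype.card E)) (h5 : IsSquare (5 : E)) : ∃ σ : SL(2, ZMod 5) →* SL(2, E), σ (-1) = -1 ∧
    (∀ g ∈ [σ (cm 0)], g.1 0 0 + g.1 1 1 = 0) ∧ (∀ g ∈ [σ (cm (-1))], g.1 0 0 + g.1 1 1 = -1) ∧
    ∀ c, c ≠ 0 → ∀ g ∈ [σ (up c)], (g.1 0 0 + g.1 1 1) ^ 2 + (g.1 0 0 + g.1 1 1) = 1 := by
  obtain ⟨r, hr⟩ := h5
  have h2 := two_ne o
  obtain ⟨t, ht⟩ : ∃ t : E, t ^ 2 + t = 1 := ⟨(r - 1) / 2, by field_simp; grind⟩
  obtain ⟨x, y, e⟩ := sq2 o one_ne_zero one_ne_zero (t ^ 2 - 3)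
  let b : SL(2, E) := ⟨!![(x - 1) / 2, (y - t) / 2; (y + t) / 2, (-x - 1) / 2], by rw [det_fin_two_of]; field_simp; grind⟩
  have bv : b.1 = !![(x - 1) / 2, (y - t) / 2; (y + t) / 2, (-x - 1) / 2] := rfl
  have b3 : b.1 0 0 + b.1 1 1 = -1 := by simp [bv]; field_simp; ring
  have a5 : (wy E * b).1 0 0 + (wy E * b).1 1 1 = t := by simp [bv, wy_val]; field_simp; ring
  obtain ⟨σ, p1, p2⟩ := exists_hom_SL25 (a := wy E) (b := b) (by rw [show 4 = 2 * 2 from rfl, pow_mul, pow_two (wy E), ww]; simp)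
    (by rw [pow_two, ww]; simp) (cube b3) (five (by rwa [a5]))
  have o5 : Odd (Fintype.card (ZMod 5)) := by rw [ZMod.card]; decide
  simp only [List.forall_mem_singleton]
  refine ⟨σ, by rw [← ww, ← ww, ← p1, ← map_mul]; rfl, ?_, ?_, fun c c0 => ?_⟩
  · exact (tr_cj (σ.map_isConj (conj_tr o5 slA (by decide)))).trans (by rw [p1]; simp [wy_val])
  · exact (tr_cj (σ.map_isConj (conj_tr o5 slB (by decide)))).trans (by rw [p2, b3])
  obtain ⟨d, hd⟩ := conj_up (g := slA * slB) (by decide)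
  have k := tr_cj (σ.map_isConj hd)
  rw [map_mul, p1, p2, a5] at k
  obtain ⟨s, s0, f | f⟩ := (by decide : ∀ c d : ZMod 5, c ≠ 0 → d ≠ 0 → ∃ s, s ≠ 0 ∧ (s * s * d = c ∨ s * s * (d + d) = c)) c d c0
    (by rintro rfl; rw [up_zero, isConj_one_right] at hd; revert hd; decide)
  all_goals rw [← tr_cj (σ.map_isConj (up_cj s s0 f))]
  · rwa [k]
  · rw [up_add, map_mul, tr_sq, k]; grind
end

def m5 : GL (Fin 2) (ZMod 5) := ⟨!![2, 0; 0, 1], !![3, 0; 0, 1], by decide, by decide⟩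

theorem a5 (lf : LF.{u}) (sc : SC.{u}) (cs : CS.{u}) (r2 : R2.{u}) : A5.{u} := by
  intro F G _ _ _ p _ _ H P τ s p2 p5 l
  obtain ⟨e, φ, h⟩ := ex_cv lf s.toRq 5 le_rfl l
  have o5 : Odd (Fintype.card (ZMod 5)) := by rw [ZMod.card]; decide
  have h2 : (2 : F) ≠ 0 := by exact_mod_cast two_ne' (F := F) p Nat.prime_two p2
  have t := h.tf sc cs (by rw [ZMod.card]; exact Fact.out) h2 (by rw [ZMod.card]; exact two_ne' p Fact.out p5)
  let σ := algebraMap F (AlgebraicClosure F)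
  obtain ⟨tu, ty⟩ := tr5 (t.map σ) (by exact_mod_cast two_ne' (F := AlgebraicClosure F) p Nat.prime_two p2)
    (two_ne' p Fact.out p5) (h.sc sc σ (gen2 (by rw [ZMod.card]; exact Fact.out) wy_yy1 (by decide)) _ (List.mem_singleton_self _))
  replace tu : ∀ c, c ≠ 0 → T (P.subtype.comp φ (up c)) = 1 := fun c c0 => σ.injective (by rw [← gm_T, map_one]; exact tu c c0)
  replace ty : T (P.subtype.comp φ (cm (-1))) = 0 := (f_cj (conj_tr o5 (yy 1) (by decide))).trans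
    (σ.injective (by rw [← gm_T, map_zero]; exact ty))
  have tc : ∀ {k : Type u} [Field k] {ρ : SL(2, ZMod 5) →* G6 k}, ρ (-1) = -1 → T (ρ (cm 0)) = 0 → T (ρ (cm (-1))) = 0 →
      ∀ t, t ^ 2 ≠ 4 → T (ρ (cm t)) = 0 := fun {k} _ ρ n a b t c => by
    rcases (by decide : ∀ t : ZMod 5, t ^ 2 ≠ 4 → t = 0 ∨ t = -1 ∨ t = 1) t c with rfl | rfl | rfl
    exacts [a, b, by
      rw [f_cj (conj_tr' o5 (g := -cm 1) (-1) (by decide) (by decide)), ← neg_one_mul, map_mul, n, neg_one_mul, T_neg] at b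
      exact neg_eq_zero.1 b]
  have t0 := tc t.neg (t.f4 h2 (by decide)) ty
  have po := (Nat.Prime.eq_two_or_odd (p := p) Fact.out).resolve_left p2
  have q := card_le_one p (h.fld s p one_ne_zero fun g => by
    by_cases a : (g.1 0 0 + g.1 1 1) ^ 2 = 4
    · refine t.fup p 1 p2 (fun c => ?_) a
      by_cases c0 : c = 0
      exacts [by rw [c0, mul_zero], by rw [tu c c0, tu _ (mul_ne_zero (pow_ne' p 5 p5 1) c0)]]
    · rw [← f_cj (conj_tr o5 g a), t0 _ a, zero_pow (pow_pos (Nat.Prime.pos Fact.out) 1).ne'])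
  refine ⟨q, ?_⟩
  obtain hH | ⟨x, hx, x2⟩ := h.out s (card_aut 5 le_rfl) m5 (H26.O7.dg (.mk0 2 (by decide))) (by decide +kernel)
  swap
  · have := FiniteField.isSquare_two_iff.1 ((r2 F h2 x hx).1 (by
      rw [show 4 = 2 * 2 from rfl, pow_mul, ← t.neg, show (-1 : SL(2, ZMod 5)) = H26.O7.dg (.mk0 2 (by decide)) ^ 2 by decide +kernel,
        map_pow]
      rcases x2 with x2 | x2 <;> simp [x2]))
    omega
  have n5 : p % 5 ≠ 0 := fun z => p5 ((Nat.prime_dvd_prime_iff_eq Fact.out Fact.out).1 (Nat.dvd_of_mod_eq_zero z)).symm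
  by_contra n
  have c : p % 5 = 1 ∨ p % 5 = 4 := by
    rw [← Nat.mod_mod_of_dvd p (by norm_num : 5 ∣ 40)] at n5 ⊢
    rw [← Nat.mod_mod_of_dvd p (by norm_num : 2 ∣ 40)] at po
    rw [← Nat.mod_mod_of_dvd p (by norm_num : 8 ∣ 40)] at n
    have := Nat.mod_lt p (by norm_num : 0 < 40)
    generalize p % 40 = r at n n5 po this ⊢
    interval_cases r <;> omega
  clear n
  obtain ⟨θ, n, θ0, θ3, θ5⟩ := ex_ico (E := ZMod p) (by rw [ZMod.card]; exact Nat.odd_iff.2 po) (by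
    refine (ZMod.exists_sq_eq_prime_iff_of_mod_four_eq_one (p := 5) (q := p) rfl p2).1 ?_
    rw [← ZMod.natCast_mod p 5]
    rcases c with c | c <;> rw [c] <;> decide)
  simp only [List.forall_mem_singleton] at θ0 θ3 θ5
  let ι := ZMod.castHom (dvd_refl p) F
  let κ := (GeneralLinearGroup.map ι).comp kp
  let ρ := κ.comp (θ.prod (θ.comp (cjG m5).toMonoidHom))
  have ρT : ∀ g, T (ρ g) = ι (((θ g).1 0 0 + (θ g).1 1 1) * (((θ (cjG m5 g)).1 0 0 + (θ (cjG m5 g)).1 1 1) ^ 2 - 1)) :=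
    fun g => (gm_T _ _).trans (congrArg ι (kp_T _ _))
  have ρn : ρ (-1) = -1 := by
    change GeneralLinearGroup.map ι (kp (θ (-1), θ (cjG m5 (-1)))) = _
    rw [show cjG m5 (-1) = -1 by decide, n, ← map_one (GeneralLinearGroup.map ι), ← gm_neg]
    congr 1
    ext i j
    rcases i with i | i <;> rcases j with j | j <;> fin_cases i <;> fin_cases j <;> simp [kp_val, s2]
  obtain ⟨B, hB⟩ := te2 (P.subtype.comp φ) ρ (h.range.symm ▸ h.top) (cls_ext o5 t.neg ρn (fun c c0 => by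
    have := θ5 c c0
    rw [tu c c0, ρT, (by decide : ∀ c, cjG m5 (up c) = up c * up c), map_mul θ, tr_sq, ← map_one ι]
    congr 1; grind) fun a b => (t0 a b).trans (tc ρn (by rw [ρT, θ0, zero_mul, map_zero]) (by
      rw [ρT, ← tr_cj (θ.map_isConj (conj_tr' o5 (g := cjG m5 (cm (-1))) (-1) (by decide) (by decide))), θ3]; simp) a b).symm)
  have HP : ∀ x ∈ H, ∃ g, P.subtype.comp φ g = x := fun x hx => by
    rcases hH x hx with a | a <;> obtain ⟨g, hg⟩ := h.on ⟨_, a⟩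
    · exact ⟨g, congrArg Subtype.val hg⟩
    · exact ⟨-g, by rw [t.ρ_neg, neg_eq_iff_eq_neg]; exact congrArg Subtype.val hg⟩
  obtain a | a := nm F G H P τ s κ.range ((fromBlocks 0 (-qq) qq 0 : M6 (ZMod p)).map ι) B
    (fun z => by simpa [qq] using congrFun (congrFun z (.inr 1)) (.inl 1))
    (by
      rintro _ ⟨x, rfl⟩
      rw [MonoidHom.comp_apply, gm_val, ← transpose_map, ← Matrix.map_mul, ← Matrix.map_mul, kp_J])
    fun x hx => by obtain ⟨g, rfl⟩ := HP x hx; rw [hB]; exact ⟨_, rfl⟩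
  · obtain ⟨g, hg⟩ := HP _ (a _ ⟨(up 1, 1), rfl⟩)
    have := congrArg (· ^ 120) hg
    simp only [← map_pow] at this
    rw [← card_SL25, pow_card_eq_one', card_SL25, map_one, eq_comm, show B⁻¹ * κ (up 1, 1) * B = B⁻¹ * κ (up 1, 1) * B⁻¹⁻¹ by simp,
      conj_pow, mul_inv_eq_one, mul_eq_left, ← map_pow, Prod.pow_mk, up_pow, one_pow, MonoidHom.comp_apply,
      map_eq_one_iff _ (gm_inj ι)] at this
    have := congrArg (fun z : G6 (ZMod p) => z.val (.inl 0) (.inr 0)) this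
    simp only [kp_val, s2_one, up_val] at this
    have : p ∣ 120 := (ZMod.natCast_eq_zero_iff 120 p).1 (by simpa using this)
    have pp : p.Prime := Fact.out
    rw [show 120 = 2 ^ 3 * (3 * 5) from rfl, pp.dvd_mul, pp.dvd_mul] at this
    rcases this with a | a | a
    · exact p2 ((Nat.prime_dvd_prime_iff_eq pp Nat.prime_two).1 (pp.dvd_of_dvd_pow a))
    · have := (Nat.prime_dvd_prime_iff_eq pp Nat.prime_three).1 a; omega
    · exact p5 ((Nat.prime_dvd_prime_iff_eq pp Fact.out).1 a)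
  · have b := Nat.card_le_card_of_injective (β := κ.range) (fun g : S6 F => ⟨_, a g.1 g.2⟩) fun x y z =>
      Subtype.ext (by simpa using z)
    have := b.trans (Nat.card_le_card_of_surjective _ κ.rangeRestrict_surjective)
    rw [Nat.card_prod, H11.card_sl_two, ZMod.card, card_spGL, q] at this
    simp only [Finset.prod_range_succ, Finset.prod_range_zero] at this
    have p1 := Nat.Prime.two_le (p := p) Fact.out
    have k : ∀ n, n ≠ 0 → 1 ≤ p ^ n - 1 := fun n n0 => Nat.le_sub_one_of_lt (Nat.one_lt_pow n0 p1)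
    have : p * (p ^ 2 - 1) * (p * (p ^ 2 - 1)) < p ^ 9 * 1 := calc
      _ ≤ p * p ^ 2 * (p * p ^ 2) := by gcongr <;> exact Nat.sub_le _ _
      _ = p ^ 6 := by ring
      _ < _ := by rw [mul_one]; exact Nat.pow_lt_pow_right p1 (by norm_num)
    refine this.not_ge (le_trans (Nat.mul_le_mul_left _ ?_) ‹_›)
    exact Nat.succ_le_of_lt (Nat.mul_pos (Nat.mul_pos (Nat.mul_pos one_pos (k _ (by norm_num))) (k _ (by norm_num))) (k _ (by norm_num)))

end H24.S6
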