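/-
S5806: an explicit `SL₂(7) < 2·A₇ < Sp₆(9)`.
-/
import Cfsg.Agent.H24.S6d
import Cfsg.Agent.H13.SL2Pres

set_option autoImplicit false

open Matrix Cfsg Cfsg.Geo H27.Asch Module H6.SP H24.O7
open H11.SP hiding up dg
open H26.O7 (up wy up_val wy_val up_add up_zero up_pow dg_up dg_val wy_inv)
open scoped MatrixGroups
namespace H24.S6

instance fF9 : Fact (∀ r : ZMod 3, r ^ 2 ≠ 2 + 0 * r) := ⟨by decide⟩
abbrev N9 : Type := QuadraticAlgebra (ZMod 3) 2 0
def nf (n : ℕ) : N9 := ⟨n, (n / 3 : ℕ)⟩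
def ix : I6 → ℕ := Sum.elim (·.1) (·.1 + 3)
def mv (c : ℕ) : V6 N9 := fun i => nf (c / 9 ^ ix i % 9)
def mk (c : ℕ) : M6 N9 := Matrix.of fun i j => nf (c / 9 ^ (6 * ix i + ix j) % 9)
def xt (t : ZMod 7) : M6 N9 := mk ([2503156028340984047688117509194510, 3939033015312357804741062376492479,
  20110145289053910912153137373056503, 1575315369080818448152342585892773, 18372917145227599593450024179152116,
  11661461617617395460146866209195943, 9268569579096701508916374545870913].getD t.val 0)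
def ht (t : ZMod 7) : M6 N9 := mk ([2503156028340984047688117509194510, 2503156028340984047688117509194510,
  17889434564290670542021997848230530, 9419074800480722543030629159233825, 16025814713881781080389092424393999,
  13121880800210914513968958447954126, 5006312056681968095376235018389020].getD t.val 0)
def wx (t : ZMod 7) : M6 N9 := mk ([3196166613726528059269276253976522, 17994984020116501671251012503631479,
  18314843280924592469992528039112370, 7115577798466020033937787862123562, 14608177137017516172230914133814647,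
  7313839107309122799449326011947854, 7759860430845812762462522013803590].getD t.val 0)
def m1 := mk 5175255772061950234039380929976062
def m2 := mk 3943224402598907304320459891937734
def m4 := mk 9978398241847669120532518998871101

theorem x_add : ∀ s t, xt s * xt t = xt (s + t) := by decide +kernel
theorem x_zero : xt 0 = 1 ∧ ht 1 = 1 ∧ ht (-1) = -1 ∧ wx 0 * -wx 0 = 1 ∧ m1 * m1 = m2 ∧ m2 * m2 = m4 ∧ m1 * m4 = 1 ∧ m1 ≠ 1 := by
  decide +kernel
theorem h_mul : ∀ s t, s ≠ 0 → t ≠ 0 → ht s * ht t = ht (s * t) := by decide +kernel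
theorem h_inv : ∀ t, ht t * ht t⁻¹ = 1 ∧ wx 0 * xt t = wx t ∧ wx 0 * ht t = ht t⁻¹ * wx 0 ∧
    (t ≠ 0 → ht t * xt 1 = xt (t ^ 2) * ht t) := by decide +kernel
theorem w_x : ∀ t, t ≠ 0 → xt t⁻¹ * wx t = ht t⁻¹ * wx (-t⁻¹) * wx 0 := by decide +kernel
def jj := mk 3433684538190683625516107762049
theorem jj_eq : J _ N9 = jj := by
  ext (i | i) (j | j) : 2 <;> simp only [J, fromBlocks_apply₁₁, fromBlocks_apply₁₂, fromBlocks_apply₂₁, fromBlocks_apply₂₂] <;>
    revert i j <;> decide +kernel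
theorem g_sp : (xt 1)ᵀ * jj * xt 1 = jj ∧ (wx 0)ᵀ * jj * wx 0 = jj ∧ m1ᵀ * jj * m1 = jj := by decide +kernel
theorem g_tr : (∀ c, c ≠ 0 → (xt c).trace = -1) ∧ (wx 0).trace = 0 ∧ (wx (-1)).trace = 0 ∧ (wx 3).trace = -⟨0, 1⟩ := by
  decide +kernel
def ln (i : ℕ) : V6 N9 := mv ([475228, 478036, 6561, 87634, 15310, 231652, 81253, 37549, 68581, 114049, 243451, 528040, 54568, 384373, 21871,
  467461, 48115, 490771, 402976, 336313, 318664, 184753, 265519, 443737, 468667, 97047, 296632, 218179, 521155, 133651,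
  520993, 513703, 220951, 269182, 135100, 491752, 323947, 243613, 239950, 419500, 415693, 244117, 159310, 55251, 243658,
  18514, 392761, 172045, 244162, 231588, 245827, 211204, 83053, 212707, 245512, 454978, 458281, 508033, 380395, 386614,
  137602, 92413, 106165, 480178, 77347, 526780, 384111, 47728, 36289, 39880].getD i 0)
def Pm (g : M6 N9) (l : List ℕ) : Prop := ∀ i : Fin 70, l.getD i 0 < 630 ∧ g *ᵥ ln i = nf (l.getD i 0 % 9) • ln (l.getD i 0 / 9)
instance (g : M6 N9) (l : List ℕ) : Decidable (Pm g l) := by unfold Pm; infer_instance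
theorem pm1 : Pm (xt 1) [12, 43, 59, 79, 98, 116, 131, 155, 187, 201, 166, 231, 242, 254, 177, 296, 313, 341, 359, 367, 374, 393, 121, 406,
  421, 272, 64, 20, 448, 34, 452, 332, 281, 3, 89, 430, 496, 436, 212, 300, 518, 532, 551, 563, 509, 105, 471, 481, 47,
  150, 350, 528, 380, 487, 196, 403, 136, 249, 548, 592, 607, 620, 316, 627, 219, 269, 571, 595, 578, 467] := by decide +kernel
theorem pm2 : Pm (wx 0) [26, 50, 5, 88, 102, 17, 138, 169, 191, 31, 211, 39, 250, 265, 283, 57, 320, 343, 67, 352, 385, 73, 204, 97, 377, 434,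
  367, 112, 258, 124, 464, 133, 304, 292, 394, 152, 512, 528, 155, 173, 238, 221, 184, 310, 571, 411, 474, 533, 226,
  590, 544, 278, 420, 578, 553, 597, 329, 516, 339, 424, 457, 493, 561, 403, 478, 449, 498, 622, 615, 605] := by decide +kernel
theorem pm3 : Pm m1 [28, 19, 68, 93, 75, 125, 149, 175, 199, 188, 220, 193, 249, 274, 157, 298, 329, 357, 335, 268, 143, 402, 116, 411,
  424, 259, 56, 43, 286, 17, 473, 314, 442, 483, 494, 420, 521, 209, 433, 293, 498, 547, 53, 566, 573, 578, 455, 4, 554,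
  129, 527, 344, 381, 83, 226, 392, 372, 238, 534, 321, 608, 624, 593, 620, 168, 364, 510, 597, 102, 464] := by decide +kernel

def X (t : ZMod 7) : G6 N9 := ⟨xt t, xt (-t), by rw [x_add, add_neg_cancel, x_zero.1], by rw [x_add, neg_add_cancel, x_zero.1]⟩
def Hh (t : ZMod 7) : G6 N9 := ⟨ht t, ht t⁻¹, (h_inv t).1, mul_eq_one_comm.1 (h_inv t).1⟩
def Ww : G6 N9 := ⟨wx 0, -wx 0, x_zero.2.2.2.1, mul_eq_one_comm.1 x_zero.2.2.2.1⟩
def Mm : G6 N9 := ⟨m1, m4, x_zero.2.2.2.2.2.2.1, mul_eq_one_comm.1 x_zero.2.2.2.2.2.2.1⟩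
theorem X_add (s t : ZMod 7) : X (s + t) = X s * X t := Units.ext (x_add s t).symm
theorem X_pow (s : ZMod 7) (n : ℕ) : X s ^ n = X (n * s) := by
  induction n with
  | zero => exact Units.ext (by rw [Nat.cast_zero, zero_mul]; exact x_zero.1.symm)
  | succ n ih => rw [pow_succ, ih, ← X_add, Nat.cast_succ, add_one_mul]
theorem Mm5 : Mm ^ 5 = 1 := by
  rw [show Mm ^ 5 = Mm * (Mm * Mm * (Mm * Mm)) by simp only [pow_succ, pow_zero, one_mul, mul_assoc]]
  refine Units.ext ?_
  change m1 * (m1 * m1 * (m1 * m1)) = 1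
  rw [x_zero.2.2.2.2.1, x_zero.2.2.2.2.2.1, x_zero.2.2.2.2.2.2.1]

theorem ex_model : ∃ ρ : SL(2, ZMod 7) →* G6 N9, (∀ t, ρ (up t) = X t) ∧ ρ (wy _) = Ww := by
  have h1 : Hh 1 = 1 := Units.ext x_zero.2.1
  obtain ⟨ρ, a, b⟩ := H13.SL2.exists_hom X (fun t => Hh t * Ww) X_add
    (fun s t s0 t0 => by
      simp only [h1, one_mul, mul_inv_cancel_right]
      exact Units.ext (h_mul s t s0 t0).symm)
    (fun s t t0 => by
      have : SemiconjBy (Hh t) (X 1) (X (t ^ 2)) := Units.ext ((h_inv t).2.2.2 t0)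
      have := this.pow_right s.val
      simp only [h1, one_mul, mul_inv_cancel_right]
      rwa [X_pow, X_pow, ZMod.natCast_zmod_val, mul_one, mul_comm s] at this)
    (fun t _ => by
      rw [h1, one_mul, ← mul_assoc]
      congr 1
      exact Units.ext (h_inv t).2.2.1)
    (by rw [h1, one_mul, show Hh (-1) = -1 from Units.ext x_zero.2.2.1, neg_one_mul]; exact Units.ext rfl)
    (fun t t0 => by
      have w : ∀ t, (Ww * X t).val = wx t := fun t => (h_inv t).2.1
      have : X t⁻¹ * (Ww * X t) = Hh t⁻¹ * (Ww * X (-t⁻¹)) * Ww := Units.ext (by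
        rw [Units.val_mul (X _), Units.val_mul _ Ww, Units.val_mul (Hh _), w, w]; exact w_x t t0)
      have n : X t⁻¹ * X (-t⁻¹) = 1 := by rw [← X_add, add_neg_cancel]; exact Units.ext x_zero.1
      rw [h1, one_mul, mul_inv_eq_iff_eq_mul, ← mul_right_inj (X t⁻¹), this]
      generalize X t⁻¹ = a, X (-t⁻¹) = b, Hh t⁻¹ = c, Ww = d at n
      rw [← mul_assoc, ← mul_assoc, ← mul_assoc a, ← mul_assoc a, n, one_mul])
  exact ⟨ρ, a, by rw [← one_mul Ww, ← h1, ← b 1 one_ne_zero]; congr 1; decide +kernel⟩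

end H24.S6
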