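/-
S5806: chunk `L7t`.
-/
import Cfsg.Agent.H24.S6e

set_option autoImplicit false
set_option linter.unnecessarySeqFocus false
set_option linter.unusedSectionVars false

open Matrix Cfsg Cfsg.Geo H27.Asch Module H6.SP H24.O7
open H11.SP hiding up dg
open H26.O7 (up wy up_val wy_val up_add up_zero up_pow dg_up dg_val wy_inv)
open scoped MatrixGroups
namespace H24.S6
universe u

set_option synthInstance.maxSize 1000 in
theorem e7 : ∀ a b c : ZMod 7, 6 ≤ cnt ![a, b, c] ∧ ((∀ i, ∃ j, ex ![a, b, c] j = (2 : ℕ) * ex ![a, b, c] i) →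
    (∃ i, ex ![a, b, c] i ≠ 0) → ∀ k : ZMod 7, k ≠ 0 →
    0 ::ₘ (Finset.univ.val.map fun i => k * ex ![a, b, c] i) = Finset.univ.val) := by decide +kernel
set_option synthInstance.maxSize 1000 in
theorem e8 : ∀ a b c : ZMod 8, (∀ i, (4 : ℕ) * ex ![a, b, c] i = 4) → cnt ![a, b, c] ≤ 14 →
    Finset.univ.val.map (ex ![a, b, c]) = {1, 7, 1, 7, 3, 5} ∨ Finset.univ.val.map (ex ![a, b, c]) = {1, 7, 3, 5, 3, 5} := by
  decide +kernel
def a7 : SL(2, ZMod 7) := ⟨!![0, 2; 3, 0], by decide⟩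
def m7 : GL (Fin 2) (ZMod 7) := ⟨!![0, 4; 1, 1], !![5, 1; 2, 0], by decide, by decide⟩
def g7 : SL(2, ZMod 7) := ⟨!![6, 6; 5, 4], by decide⟩

theorem tr7 {K : Type*} [Field K] [IsAlgClosed K] {ρ : SL(2, ZMod 7) →* G6 K} (h : Tf ρ) (h2 : (2 : K) ≠ 0)
    (h0 : ((7 : ℕ) : K) ≠ 0) (d : dh (ρ a7).val (ρ a7).val + dh (ρ (a7 * up 1)).val (ρ (a7 * up 1)).val +
      dh (ρ (a7 * (a7 * up 1))).val (ρ (a7 * (a7 * up 1))).val ≤ 38) :
    (∀ c, c ≠ 0 → T (ρ (up c)) = -1) ∧ T (ρ (a7 * up 1)) * T (ρ (a7 * up 1)) = 2 := by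
  obtain ⟨ψ, B, e, s⟩ := spec 7 h0 (h.sp (up 1)) (by rw [← map_pow, ← map_one ρ]; congr 1; decide)
  have k := e7 (e 0) (e 1) (e 2)
  rw [← vec3 e] at k
  refine ⟨fun c c0 => ?_, ?_⟩
  · have := s.sum (by decide)
    rw [← k.2 (s.cj (by rw [← map_pow, up_pow]; exact ρ.map_isConj (up_cj 3 (by decide) (by decide))))
      (s.ne (h.up_ne h2 one_ne_zero)) c c0, Multiset.map_cons, Multiset.sum_cons, AddChar.map_zero_eq_one] at this
    rw [up_val', map_pow, s.Tk, ZMod.natCast_zmod_val, eq_neg_of_add_eq_zero_right this]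
  have y4 : ρ (a7 * up 1) ^ 4 = -1 := by rw [← map_pow, ← h.neg]; congr 1; decide
  obtain ⟨χ, C, f, r⟩ := spec 8 (by rw [show 8 = 2 ^ 3 from rfl, Nat.cast_pow]; exact pow_ne_zero _ (by exact_mod_cast h2))
    (h.sp (a7 * up 1)) (by rw [show 8 = 4 * 2 from rfl, pow_mul, y4]; simp)
  have l := e8 (f 0) (f 1) (f 2)
  rw [← vec3 f] at l
  have := dh4 (h.sp a7) h2 (by rw [← map_pow, ← h.neg]; congr 1; decide)
  have := s.cnt_le
  have := r.cnt_le
  rw [show a7 * (a7 * up 1) = -up 1 by decide, h.ρ_neg, dh_neg] at d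
  have z : ∀ n : ℕ, χ n = χ 1 ^ n := fun n => by rw [← AddChar.map_nsmul_eq_pow, nsmul_one]
  have z4 : χ 1 ^ 4 = -1 := (mul_self_eq_one_iff.1 (by rw [← pow_add, ← z]; exact χ.map_zero_eq_one)).resolve_left fun e =>
    absurd ((r.pr.zmod_char_eq_one_iff 8 _).1 ((z 4).trans e)) (by decide)
  have z3 : χ 3 = _ := z 3
  have z5 : χ 5 = _ := z 5
  have z7 : χ 7 = _ := z 7
  rw [r.T1]
  rcases l (r.neg y4 (by decide) (by decide)) (by omega) with l | l <;> simp [l, z3, z5, z7] <;> grind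

theorem ln0 : ln 0 (.inl 0) ≠ 0 := by decide +kernel
/-- the stabiliser of a set of vectors -/
def stab {F : Type*} [Field F] [Finite F] (Ω : Set (V6 F)) : Subgroup (G6 F) :=
  let S : Submonoid (G6 F) :=
    { carrier := {g | ∀ v ∈ Ω, g.val *ᵥ v ∈ Ω}
      mul_mem' := fun a b v h => by rw [Units.val_mul, ← mulVec_mulVec]; exact a _ (b v h)
      one_mem' := fun v h => by simpa }
  { S with inv_mem' := fun {g} h => (Submonoid.powers_le (P := S)).2 h (mem_powers_iff_mem_zpowers.2 (inv_mem (Subgroup.mem_zpowers g))) }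

theorem l7t (lf : LF.{u}) (sc : SC.{u}) (cs : CS.{u}) (r2 : R2.{u}) : L7t.{u} := by
  intro F G _ _ _ p _ _ H P τ s q l
  obtain rfl : p = 3 := (Nat.prime_dvd_prime_iff_eq Fact.out Nat.prime_three).1 ((Nat.Prime.dvd_of_dvd_pow Fact.out (n := 2)
    ((CharP.cast_eq_zero_iff F p _).1 ((show 3 ^ 2 = Fintype.card F from q.symm) ▸ FiniteField.cast_card_eq_zero F))))
  obtain ⟨e, φ, h⟩ := ex_cv lf s.toRq 7 (by norm_num) l
  have o7 : Odd (Fintype.card (ZMod 7)) := by rw [ZMod.card]; decide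
  have h2 : (2 : F) ≠ 0 := by exact_mod_cast two_ne' (F := F) 3 Nat.prime_two (by norm_num)
  have t := h.tf sc cs (by rw [ZMod.card]; exact Fact.out) h2 (by rw [ZMod.card]; exact two_ne' 3 Fact.out (by norm_num))
  let σ := algebraMap F (AlgebraicClosure F)
  obtain ⟨tu, ty⟩ := tr7 (t.map σ) (by exact_mod_cast two_ne' (F := AlgebraicClosure F) 3 Nat.prime_two (by norm_num))
    (two_ne' 3 Fact.out (by norm_num))
    (h.sc sc σ (gen2 (by rw [ZMod.card]; exact Fact.out) (by decide) (by decide)) _ (List.mem_singleton_self _))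
  replace tu : ∀ c, c ≠ 0 → T (P.subtype.comp φ (up c)) = -1 := fun c c0 =>
    σ.injective (by rw [← gm_T, map_neg, map_one]; exact tu c c0)
  replace ty : T (P.subtype.comp φ (cm 3)) * T (P.subtype.comp φ (cm 3)) = 2 := by
    rw [f_cj (conj_tr' o7 (g := a7 * up 1) 3 (by decide) (by decide))]
    exact σ.injective (by rw [map_mul, ← gm_T, map_ofNat]; exact ty)
  obtain hH | ⟨x, hx, x2⟩ := h.out s (card_aut 7 (by norm_num)) m7 g7 (by decide +kernel)
  swap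
  · refine (r2 F h2 x hx).2 q ?_
    rw [show 8 = 2 * 4 from rfl, pow_mul, ← t.neg, show (-1 : SL(2, ZMod 7)) = g7 ^ 4 by decide, map_pow]
    rcases x2 with x2 | x2 <;> rw [x2]
    exacts [rfl, Even.neg_pow (by decide) _]
  let _ := ZMod.algebra F 3
  let ι : N9 →+* F := (QuadraticAlgebra.lift ⟨T (P.subtype.comp φ (cm 3)), by
    rw [ty, zero_smul, add_zero, ← Algebra.algebraMap_eq_smul_one, map_ofNat]⟩).toRingHom
  have ιω : ι ⟨0, 1⟩ = T (P.subtype.comp φ (cm 3)) := by simp [ι]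
  obtain ⟨θ, θx, θw⟩ := ex_model
  let ρ := (GeneralLinearGroup.map ι).comp θ
  have θn : θ (-1) = -1 := by
    rw [← ww, map_mul, θw, ← neg_eq_iff_eq_neg, ← mul_neg]; exact Units.ext x_zero.2.2.2.1
  have ρn : ρ (-1) = -1 := by rw [MonoidHom.comp_apply, θn, gm_neg, map_one]
  have ρc : ∀ t, T (ρ (cm t)) = -ι (wx t).trace := fun t => by
    rw [cm_eq, ← neg_one_mul, map_mul, ρn, neg_one_mul, T_neg, MonoidHom.comp_apply, gm_T, map_mul, θx, θw, ← (h_inv t).2.1]; rfl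
  have ng : ∀ {ρ : SL(2, ZMod 7) →* G6 F}, ρ (-1) = -1 → ∀ t, t ^ 2 ≠ 4 → T (ρ (cm (-t))) = -T (ρ (cm t)) := fun n t c => by
    rw [f_cj (conj_tr' o7 (g := -cm t) (-t) (by simp [cm_val]) (by rwa [neg_sq])), ← neg_one_mul, map_mul, n, neg_one_mul, T_neg]
  obtain ⟨B, hB⟩ := te2 (P.subtype.comp φ) ρ (h.range.symm ▸ h.top) (cls_ext o7 t.neg ρn (fun c c0 => by
    rw [tu c c0, MonoidHom.comp_apply, gm_T, θx, show T (X c) = -1 from g_tr.1 c c0, map_neg, map_one]) fun a b => by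
      have k1 : T (P.subtype.comp φ (cm (-1))) = T (ρ (cm (-1))) := by
        rw [t.f33 (CharP.cast_eq_zero F 3) (by decide), ρc, g_tr.2.2.1, map_zero, neg_zero]
      have k3 : T (P.subtype.comp φ (cm 3)) = T (ρ (cm 3)) := by rw [ρc, g_tr.2.2.2, map_neg, neg_neg, ιω]
      rcases (by decide : ∀ t : ZMod 7, t ^ 2 ≠ 4 → t = 0 ∨ t = -1 ∨ t = - -1 ∨ t = 3 ∨ t = -3) a b with
        rfl | rfl | rfl | rfl | rfl
      exacts [by rw [t.f4 h2 (by decide), ρc, g_tr.2.1, map_zero, neg_zero], k1, by rw [ng t.neg _ (by decide), ng ρn _ (by decide), k1],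
        k3, by rw [ng t.neg _ (by decide), ng ρn _ (by decide), k3]])
  have HP : ∀ x ∈ H, ∃ g, P.subtype.comp φ g = x := fun x hx => by
    rcases hH x hx with a | a <;> obtain ⟨g, hg⟩ := h.on ⟨_, a⟩
    · exact ⟨g, congrArg Subtype.val hg⟩
    · exact ⟨-g, by rw [t.ρ_neg, neg_eq_iff_eq_neg]; exact congrArg Subtype.val hg⟩
  let w : Fin 70 × F → V6 F := fun x => x.2 • (ι ∘ ln x.1)
  have mem : ∀ (g : G6 N9) (l : List ℕ), g.valᵀ * jj * g.val = jj → Pm g.val l →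
      GeneralLinearGroup.map ι g ∈ S6 F ⊓ stab (Set.range w) := fun g l a b =>
    ⟨(gm_mem ι).2 (mem_J.2 (jj_eq ▸ a)), by
      rintro _ ⟨⟨i, c⟩, rfl⟩
      obtain ⟨b1, b2⟩ := b i
      refine ⟨(⟨l.getD i 0 / 9, by omega⟩, c * ι (nf (l.getD i 0 % 9))), ?_⟩
      ext j
      rw [mulVec_smul, gm_val, Pi.smul_apply, ← RingHom.map_mulVec, b2]
      simp [w, mul_assoc]⟩
  obtain a | a := nm F G H P τ s (S6 F ⊓ stab (Set.range w)) (J _ F) B
    (fun z => by simpa [J] using congrFun (congrFun z (.inr 1)) (.inl 1)) (fun m hm => mem_J.1 hm.1) fun x hx => by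
      obtain ⟨g, rfl⟩ := HP x hx
      rw [hB]
      refine H13.SL2.induction (p := fun g => ρ g ∈ S6 F ⊓ stab (Set.range w)) (fun c => ?_) ?_
        (fun a b x y => by rw [map_mul]; exact mul_mem x y) g
      · rw [show H13.SL2.x c = up 1 ^ c.val from up_val' c, map_pow]
        exact pow_mem (by rw [MonoidHom.comp_apply, θx]; exact mem _ _ g_sp.1 pm1) _
      · rw [show H13.SL2.w 1 = wy (ZMod 7) by decide +kernel, MonoidHom.comp_apply, θw]
        exact mem _ _ g_sp.2.1 pm2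
  · obtain ⟨g, hg⟩ := HP _ (a _ (mem Mm _ g_sp.2.2 pm3))
    have := congrArg (· ^ 336) hg
    simp only [← map_pow] at this
    rw [show g ^ 336 = 1 by
        rw [← show Nat.card SL(2, ZMod 7) = 336 by rw [H11.card_sl_two, ZMod.card]; rfl, pow_card_eq_one'],
      map_one, eq_comm, show ∀ x, B⁻¹ * x * B = B⁻¹ * x * B⁻¹⁻¹ by simp, conj_pow, mul_inv_eq_one, mul_eq_left, ← map_pow,
      map_eq_one_iff _ (gm_inj ι), show 336 = 5 * 67 + 1 from rfl, pow_succ, pow_mul, Mm5, one_pow, one_mul] at this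
    exact x_zero.2.2.2.2.2.2.2 (congrArg Units.val this)
  · let v := (B⁻¹).val *ᵥ w (0, 1)
    obtain ⟨f, hf⟩ : ∃ f, fm v f ≠ 0 := by
      by_contra! z
      have := congrArg (B.val *ᵥ ·) (fm_nd z)
      simp only [v, mulVec_mulVec, Units.mul_inv, one_mulVec, mulVec_zero, w, one_smul] at this
      exact ln0 ((_root_.map_eq_zero ι).1 (congrFun this (.inl 0)))
    have k : ∀ u, fm v u ≠ 0 → ∃ x, (B⁻¹).val *ᵥ w x - v = u := fun u hu => by
      obtain ⟨x, hx⟩ := (a _ ((spΦ 3 F).tv_mem_iso (spΦ_alt u) (c := (fm v u)⁻¹) (by simp [spΦ]))).2 _ ⟨(0, 1), rfl⟩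
      refine ⟨x, ?_⟩
      rw [hx, Units.val_mul, Units.val_mul, ← mulVec_mulVec, ← mulVec_mulVec, mulVec_mulVec, Units.inv_mul, one_mulVec,
        Frm.tv_mulVec]
      change v + ((fm v u)⁻¹ * fm v u) • u - v = u
      rw [inv_mul_cancel₀ hu, one_smul, add_sub_cancel_left]
    have := Fintype.card_le_of_surjective (fun x : (Fin 70 × F) × Bool => (B⁻¹).val *ᵥ w x.1 - v - if x.2 then f else 0) fun u => by
      by_cases c : fm v u = 0
      · obtain ⟨x, hx⟩ := k (u + f) (by simpa [c])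
        exact ⟨(x, true), by dsimp only; rw [hx, if_pos rfl, add_sub_cancel_right]⟩
      · obtain ⟨x, hx⟩ := k u c
        exact ⟨(x, false), by dsimp only; rw [hx, if_neg (by decide), sub_zero]⟩
    simp [q] at this

end H24.S6
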