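import Cfsg.Agent.H17.Jordan

/-! Witt's lemma on transitive extensions. -/

set_option autoImplicit false

namespace H24
open MulAction Subgroup

section
variable {K Ω : Type*} [Group K] [MulAction K Ω]

theorem dc_of_trans {G : Subgroup K} {a : Ω} {y : K} (hy : y ∈ G) {X : Set Ω}
    (hX : ∀ g ∈ G, g • a ≠ a → g • a ∈ X) (hya : y • a ≠ a)
    (ht : ∀ b ∈ X, ∀ c ∈ X, ∃ h ∈ G ⊓ stabilizer K a, h • b = c) {g : K} (hg : g ∈ G)
    (hga : g • a ≠ a) : ∃ h ∈ G ⊓ stabilizer K a, ∃ h' ∈ G ⊓ stabilizer K a, g = h * y * h' := by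
  obtain ⟨h, h1, h2⟩ := ht _ (hX y hy hya) _ (hX g hg hga)
  refine ⟨h, h1, (h * y)⁻¹ * g, mem_inf.2 ⟨mul_mem (inv_mem (mul_mem (mem_inf.1 h1).1 hy)) hg, ?_⟩,
    by group⟩
  rw [mem_stabilizer_iff, mul_smul, ← h2, ← mul_smul h, inv_smul_smul]

theorem witt_step [Finite K] {G : Subgroup K} {w a : Ω} {x y : K} (hG : G ≤ stabilizer K w)
    (hx : x • w ≠ w) (hy : y ∈ G)
    (hd : ∀ g ∈ G, g • a ≠ a → ∃ h ∈ G ⊓ stabilizer K a, ∃ h' ∈ G ⊓ stabilizer K a, g = h * y * h')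
    (h2 : x ^ 2 ∈ G) (h3 : (y * x) ^ 3 ∈ G)
    (hn : ∀ h ∈ G ⊓ stabilizer K a, x * h * x⁻¹ ∈ G ⊓ stabilizer K a) :
    (G ⊔ zpowers x) ⊓ stabilizer K w = G := by
  have hn' := mem_normalizer_iff''.1 (H17.mem_normalizer_of_conj_mem hn)
  have key : ∀ g ∈ G ⊔ zpowers x, g ∈ G ∨ ∃ u ∈ G, ∃ v ∈ G, g = u * x * v := fun g hg => by
    rw [zpowers_eq_closure, ← closure_eq G, ← Subgroup.closure_union, ← mem_toSubmonoid,
      closure_toSubmonoid_of_finite] at hg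
    induction hg using Submonoid.closure_induction_left with
    | one => exact Or.inl (one_mem _)
    | mul_left k hk g _ ih =>
      rcases hk with hk | rfl
      · exact ih.imp (mul_mem hk) fun ⟨u, hu, v, hv, e⟩ => ⟨k * u, mul_mem hk hu, v, hv, by
          rw [e]; group⟩
      rcases ih with ih | ⟨u, hu, v, hv, rfl⟩
      · exact Or.inr ⟨1, one_mem _, g, ih, by group⟩
      by_cases h4 : u • a = a
      · exact Or.inl (by
          simpa [pow_two, mul_assoc] using mul_mem (mul_mem (mem_inf.1 (hn u ⟨hu, h4⟩)).1 h2) hv)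
      obtain ⟨h, h5, h', h6, rfl⟩ := hd u hu h4
      exact Or.inr ⟨k * h * k⁻¹ * y⁻¹ * (y * k) ^ 3 * (k ^ 2)⁻¹, mul_mem (mul_mem (mul_mem
        (mem_inf.1 (hn h h5)).1 (inv_mem hy)) h3) (inv_mem h2), y⁻¹ * (k⁻¹ * h' * k) * v,
        mul_mem (mul_mem (inv_mem hy) (mem_inf.1 ((hn' h').1 h6)).1) hv, by simp [pow_succ, mul_assoc]⟩
  refine le_antisymm (fun g hg => (key g hg.1).resolve_right ?_) (le_inf le_sup_left hG)
  rintro ⟨u, hu, v, hv, rfl⟩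
  have := mem_stabilizer_iff.1 (mem_inf.1 hg).2
  rw [mul_smul, mul_smul, hG hv] at this
  exact hx (smul_left_cancel u (this.trans (hG hu).symm))

end

variable {α : Type*}

/-- hypotheses of Witt's lemma -/
structure WD (t : ℕ) (q : ℕ → α) (G : Subgroup (Equiv.Perm α)) (s : ℕ → Equiv.Perm α) : Prop where
  inj : ∀ i j : ℕ, 1 ≤ i → i ≤ t → 1 ≤ j → j ≤ t → q i = q j → i = j
  fix : ∀ g ∈ G, ∀ i : ℕ, 3 ≤ i → i ≤ t → g (q i) = q i
  two : ∀ a b c d : α, (∀ i, 3 ≤ i → i ≤ t → a ≠ q i ∧ b ≠ q i ∧ c ≠ q i ∧ d ≠ q i) → a ≠ b → c ≠ d →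
    ∃ g ∈ G, g a = c ∧ g b = d
  s1 : s 1 ∈ G
  s1q : s 1 (q 2) = q 1
  sq : ∀ i : ℕ, 2 ≤ i → i + 1 ≤ t → s i (q (i + 1)) = q i ∧
    ∀ j : ℕ, 1 ≤ j → j ≤ t → j ≠ i → j ≠ i + 1 → s i (q j) = q j
  sq2 : ∀ i : ℕ, 2 ≤ i → i + 1 ≤ t → s i ^ 2 ∈ G
  braid : ∀ i : ℕ, 1 ≤ i → i + 2 ≤ t → (s i * s (i + 1)) ^ 3 ∈ G
  comm : ∀ i j : ℕ, 1 ≤ i → i + 2 ≤ j → j + 1 ≤ t → (s j * s i) ^ 2 ∈ G
  norm : ∀ i : ℕ, 2 ≤ i → i + 1 ≤ t → ∀ g ∈ G ⊓ stabilizer (Equiv.Perm α) (q 2),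
    s i * g * (s i)⁻¹ ∈ G ⊓ stabilizer (Equiv.Perm α) (q 2)

/-- the successive extensions -/
def wE (G : Subgroup (Equiv.Perm α)) (s : ℕ → Equiv.Perm α) (n : ℕ) : Subgroup (Equiv.Perm α) :=
  closure ((G : Set (Equiv.Perm α)) ∪ {x | ∃ i : ℕ, 2 ≤ i ∧ i + 1 ≤ n ∧ x = s i})

/-- their supports -/
def wX (t : ℕ) (q : ℕ → α) (n : ℕ) : Set α := {x | ∀ j, n < j → j ≤ t → x ≠ q j}

variable {t n : ℕ} {q : ℕ → α} {G : Subgroup (Equiv.Perm α)} {s : ℕ → Equiv.Perm α}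

theorem wE_two : wE G s 2 = G := by
  rw [wE, Set.union_eq_left.2 (by rintro _ ⟨i, h1, h2, -⟩; omega), closure_eq]

theorem wE_succ (hn : 2 ≤ n) : wE G s (n + 1) = wE G s n ⊔ zpowers (s n) := by
  rw [wE, wE, zpowers_eq_closure, ← Subgroup.closure_union, Set.union_assoc]
  congr 2
  ext x
  refine ⟨fun ⟨i, h1, h2, e⟩ => ?_, ?_⟩
  · rcases h2.eq_or_lt with h | h
    exacts [Or.inr (e.trans (congrArg s (by omega))), Or.inl ⟨i, h1, by omega, e⟩]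
  · rintro (⟨i, h1, h2, e⟩ | e)
    exacts [⟨i, h1, by omega, e⟩, ⟨n, hn, le_rfl, e⟩]

theorem le_wE : G ≤ wE G s n := fun _ hg => subset_closure (Or.inl hg)

namespace WD
variable (h : WD t q G s)
include h

theorem fixE (hn : 2 ≤ n) {j : ℕ} (h1 : n < j) (h2 : j ≤ t) :
    wE G s n ≤ stabilizer (Equiv.Perm α) (q j) := (closure_le _).2 (by
  rintro x (hx | ⟨i, h3, h4, rfl⟩)
  exacts [h.fix x hx j (by omega) h2, (h.sq i h3 (by omega)).2 j (by omega) h2 (by omega) (by omega)])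

theorem y_spec (hn : 1 ≤ n) (ht : n + 1 ≤ t) : s n ∈ wE G s (n + 1) ∧ s n (q (n + 1)) = q n := by
  rcases hn.eq_or_lt with rfl | hn
  exacts [⟨le_wE h.s1, h.s1q⟩, ⟨subset_closure (Or.inr ⟨n, hn, le_rfl, rfl⟩), (h.sq n hn ht).1⟩]

theorem q_mem {j : ℕ} (h1 : 1 ≤ j) (h2 : j ≤ n) (h3 : j ≤ t) : q j ∈ wX t q n := fun i h4 h5 e => by
  have := h.inj _ _ h1 h3 (by omega) h5 e; omega

theorem dc (hn : 1 ≤ n) (ht : n + 1 ≤ t) (H : ∀ b ∈ wX t q n, ∀ c ∈ wX t q n,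
    ∃ g ∈ wE G s (n + 1) ⊓ stabilizer (Equiv.Perm α) (q (n + 1)), g • b = c) :
    ∀ g ∈ wE G s (n + 1), g • q (n + 1) ≠ q (n + 1) →
      ∃ u ∈ wE G s (n + 1) ⊓ stabilizer (Equiv.Perm α) (q (n + 1)),
      ∃ v ∈ wE G s (n + 1) ⊓ stabilizer (Equiv.Perm α) (q (n + 1)), g = u * s n * v :=
  fun _ => dc_of_trans (X := wX t q n) (a := q (n + 1)) (h.y_spec hn ht).1 (fun g hg h1 j h2 h3 e => by
    rcases (Nat.succ_le_of_lt h2).eq_or_lt with rfl | h2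
    · exact h1 e
    · have := h.inj _ _ (by omega) ht (by omega) h3 (smul_left_cancel g (e.trans
        (h.fixE (by omega) h2 h3 hg).symm))
      omega) (fun e => by
    have := h.inj _ _ hn (by omega) (by omega) ht ((h.y_spec hn ht).2.symm.trans e); omega) H

theorem tr (hn : 1 ≤ n) (ht : n + 1 ≤ t) (H : ∀ b ∈ wX t q n, ∀ c ∈ wX t q n,
    ∃ g ∈ wE G s (n + 1) ⊓ stabilizer (Equiv.Perm α) (q (n + 1)), g • b = c) :
    ∀ b ∈ wX t q (n + 1), ∀ c ∈ wX t q (n + 1), ∃ g ∈ wE G s (n + 1), g • b = c := by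
  obtain ⟨y1, y2⟩ := h.y_spec hn ht
  have h5 : ∀ b ∈ wX t q (n + 1), ∃ g ∈ wE G s (n + 1), g • b ∈ wX t q n := fun b hb => by
    by_cases e : b = q (n + 1)
    · exact ⟨s n, y1, by rw [e, Equiv.Perm.smul_def, y2]; exact h.q_mem hn le_rfl (by omega)⟩
    · refine ⟨1, one_mem _, fun j e1 e2 => ?_⟩
      rcases (Nat.succ_le_of_lt e1).eq_or_lt with rfl | e1
      exacts [e, hb j e1 e2]
  intro b hb c hc
  obtain ⟨u, e1, e2⟩ := h5 b hb
  obtain ⟨v, e3, e4⟩ := h5 c hc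
  obtain ⟨g, e5, e6⟩ := H _ e2 _ e4
  exact ⟨v⁻¹ * (g * u), mul_mem (inv_mem e3) (mul_mem (mem_inf.1 e5).1 e1), by
    rw [mul_smul, mul_smul, e6, inv_smul_smul]⟩

variable [Finite α]

theorem main (hn : 1 ≤ n) (ht : n + 1 ≤ t) : (∀ b ∈ wX t q n, ∀ c ∈ wX t q n,
    ∃ g ∈ wE G s (n + 1) ⊓ stabilizer (Equiv.Perm α) (q (n + 1)), g • b = c) ∧
    (∀ i, n + 1 ≤ i → i + 1 ≤ t → ∀ g ∈ wE G s (n + 1) ⊓ stabilizer (Equiv.Perm α) (q (n + 1)),
      s i * g * (s i)⁻¹ ∈ wE G s (n + 1) ⊓ stabilizer (Equiv.Perm α) (q (n + 1))) ∧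
    (2 ≤ n → wE G s (n + 1) ⊓ stabilizer (Equiv.Perm α) (q (n + 1)) = wE G s n) := by
  induction n, hn using Nat.le_induction with
  | base =>
    rw [wE_two]
    refine ⟨fun b hb c hc => ?_, h.norm, by omega⟩
    obtain ⟨g, h1, h2, h3⟩ := h.two (q 2) b (q 2) c (fun i e1 e2 =>
      have := h.q_mem (n := 2) (by omega) le_rfl ht i e1 e2
      ⟨this, hb i (by omega) e2, this, hc i (by omega) e2⟩) (hb 2 (by omega) ht).symm
      (hc 2 (by omega) ht).symm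
    exact ⟨g, ⟨h1, h2⟩, h3⟩
  | succ n hn ih =>
    obtain ⟨h1, h2, -⟩ := ih (by omega)
    obtain ⟨y1, y2⟩ := h.y_spec hn (by omega)
    have h3 := h.dc hn (by omega) h1
    have h4 : wE G s (n + 1 + 1) ⊓ stabilizer (Equiv.Perm α) (q (n + 1 + 1)) = wE G s (n + 1) := by
      rw [wE_succ (by omega)]
      refine witt_step (h.fixE (by omega) (by omega) ht) (fun e => ?_) y1 h3
        (le_wE (h.sq2 _ (by omega) ht)) (le_wE (h.braid n hn ht)) (h2 _ le_rfl ht)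
      have := h.inj _ _ (by omega) (by omega) (by omega) ht ((h.sq _ (by omega) ht).1.symm.trans e)
      omega
    rw [h4]
    refine ⟨h.tr hn (by omega) h1, fun i e1 e2 g hg => ?_, fun _ => rfl⟩
    · by_cases e : g • q (n + 1) = q (n + 1)
      · exact (h2 i (by omega) e2 g ⟨hg, e⟩).1
      obtain ⟨u, e3, v, e4, rfl⟩ := h3 g hg e
      have := mul_mem (mul_mem (mem_inf.1 (h2 i (by omega) e2 u e3)).1 (mul_mem (mul_mem
        (le_wE (h.comm n i hn e1 e2)) (inv_mem y1)) (inv_mem (le_wE (h.sq2 i (by omega) e2)))))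
        (mem_inf.1 (h2 i (by omega) e2 v e4)).1
      simpa [pow_two, mul_assoc] using this

theorem mem_of_fix {m : ℕ} (hm : 2 ≤ m) (hn : m ≤ n) (ht : n ≤ t) {g : Equiv.Perm α}
    (hg : g ∈ wE G s n) (h1 : ∀ j, m < j → j ≤ n → g (q j) = q j) : g ∈ wE G s m := by
  induction n, hn using Nat.le_induction with
  | base => exact hg
  | succ n hn ih =>
    exact ih (by omega) (((h.main (by omega) ht).2.2 (by omega)).le ⟨hg, h1 _ (by omega) le_rfl⟩)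
      fun j e1 e2 => h1 j e1 (by omega)

theorem mt (ht : 2 ≤ t) : IsMultiplyPretransitive (wE G s t) α t := by
  classical
  have mono : ∀ n ≤ t, wE G s n ≤ wE G s t := fun n hn => closure_mono
    (Set.union_subset_union_right _ fun _ ⟨i, h1, h2, e⟩ => ⟨i, h1, by omega, e⟩)
  have key : ∀ k ≤ t, IsMultiplyPretransitive (wE G s t) α k := fun k hk => by
    induction k with
    | zero => exact is_zero_pretransitive
    | succ k ih =>
      refine H17.mt_succ_of_one (ih (by omega)) ((Finset.Ioc (t - k) t).image q) ?_ fun a b ha hb => ?_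
      · rw [Finset.card_image_of_injOn, Nat.card_Ioc]
        · omega
        · intro i hi j hj
          simp only [Finset.coe_Ioc, Set.mem_Ioc] at hi hj
          exact h.inj i j (by omega) hi.2 (by omega) hj.2
      simp only [Finset.mem_image, Finset.mem_Ioc, not_exists, not_and, and_imp] at ha hb
      rcases k with _ | k
      · obtain ⟨n, rfl⟩ := Nat.exists_eq_add_of_le' (one_le_two.trans ht)
        obtain ⟨g, h1, h2⟩ := h.tr (n := n) (by omega) le_rfl (h.main (by omega) le_rfl).1 a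
          (fun j e1 e2 => by omega) b fun j e1 e2 => by omega
        exact ⟨⟨g, h1⟩, by simp, h2⟩
      obtain ⟨g, h1, h2⟩ := (h.main (n := t - (k + 1)) (by omega) (by omega)).1 a
        (fun j e1 e2 e => ha j e1 e2 e.symm) b fun j e1 e2 e => hb j e1 e2 e.symm
      refine ⟨⟨g, mono _ (by omega) h1.1⟩, ?_, h2⟩
      simp only [Finset.mem_image, Finset.mem_Ioc]
      rintro _ ⟨j, ⟨e1, e2⟩, rfl⟩
      rcases (Nat.succ_le_of_lt e1).eq_or_lt with rfl | e1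
      exacts [h1.2, h.fixE (by omega) e1 e2 h1.1]
  exact key t le_rfl

end WD
end H24
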